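import Cfsg.Agent.J4.OrdGen

/-! Orbits on the quotient `V / [V, A]`, and evaluation of powers. -/

set_option autoImplicit false

namespace Cfsg.Agent.J4.Cl

open Cfsg Cfsg.Agent.Comp Cfsg.Agent.Spor

/-- A certificate for the classes in a coset of the normal 2-subgroup. -/
structure Ct where
  /-- the permutation -/
  c : ℕ
  /-- the matrix -/
  A : ℕ
  /-- the order of the matrix -/
  m : ℕ
  /-- a partial inverse of `A + 1` -/
  B : ℕ
  /-- a section of the quotient -/
  L : ℕ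
  /-- the quotient map -/
  Q : ℕ
  /-- the dimension of the quotient -/
  d : ℕ
  /-- elements of the centraliser -/
  gens : List (ℕ × ℕ)
  /-- representatives -/
  reps : List (ℕ × ℕ)

/-- The domain: the kernel of a linear form. -/
noncomputable def dm (μ v : ℕ) : Bool := Nat.beq (par (Nat.land μ v)) 0

theorem dm_iff {μ v : ℕ} : dm μ v = true ↔ par (μ &&& v) = 0 := beq_iff _ _

theorem dm_xor {μ v w : ℕ} (hv : dm μ v = true) (hw : dm μ w = true) : dm μ (v ^^^ w) = true := by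
  rw [dm_iff] at *
  rw [Nat.and_xor_distrib_left, par_xor, hv, hw]
  rfl

theorem dm_zero (μ : ℕ) : dm μ 0 = true := by rw [dm_iff, Nat.and_zero, par_zero]

theorem dm_zero_left (v : ℕ) : dm 0 v = true := by rw [dm_iff, Nat.zero_and, par_zero]

theorem dm_full {v : ℕ} (hv : v < 4096) : dm 4095 v = true ↔ par v = 0 := by
  rw [dm_iff, Nat.and_comm, and_4095 hv]

theorem app_ind {p : ℕ → Prop} (p0 : p 0) (px : ∀ v w, p v → p w → p (v ^^^ w)) {A : ℕ}
    (h : ∀ i < 12, p (row A i)) : ∀ v < 4096, p (app A v) :=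
  bits_induction (n := 12) (by rwa [app_zero]) fun i hi v hv e => by
    rw [app_xor _ hv (two_pow_lt hi), app_two_pow _ hi]
    exact px _ _ e (h i hi)

/-- The check of a certificate. -/
noncomputable def eng (μ T : ℕ) (x : Ct) (test : ℕ → Bool) : Bool :=
  and' (Nat.beq (Nat.xor (mm (Nat.xor x.A mI) x.B) (mm x.L x.Q)) T)
    (and' (allLT 12 fun i => and' (dm μ (row x.B i))
      (and' (dm μ (row x.L i)) (Nat.blt (row x.Q i) (Nat.pow 2 x.d))))
    (Ord.fL (x.gens.map fun g => mm x.Q (mm g.1 x.L)) fun Ts =>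
      force (Idx.imgs (fun v _ => app x.Q v) (x.reps.map Prod.fst) 0) fun m0 =>
        force (Idx.bfs app Ts x.d 30 m0 m0) fun M => allB (Nat.pow 2 x.d) fun i =>
          or' (tb M i) (and' (Nat.blt i 4096) (not' (force (app x.L i) test)))))

theorem eng_spec {μ T : ℕ} (hT : ∀ v < 4096, dm μ v = true → app T v = v) {x : Ct}
    {test : ℕ → Bool} (h : eng μ T x test = true) {Pr : ℕ → Prop}
    (htr : ∀ v < 4096, ∀ w < 4096, dm μ v = true → dm μ w = true → Pr v →
      Pr (v ^^^ (w ^^^ app x.A w)))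
    (hmv : ∀ g ∈ x.gens, ∀ v < 4096, dm μ v = true → Pr v →
      dm μ (app g.1 v) = true ∧ Pr (app g.1 v))
    (hrep : ∀ r ∈ x.reps, r.1 < 4096 ∧ dm μ r.1 = true ∧ Pr r.1)
    (htest : ∀ v < 4096, dm μ v = true → ¬ test v = true → Pr v) :
    ∀ v < 4096, dm μ v = true → Pr v := by
  simp only [eng, and'_eq_true, allLT_iff, beq_iff, blt_iff, Ord.fL_eq, force_eq, allB_iff,
    or'_eq_true, not'_eq_true, tb_eq] at h
  obtain ⟨h1, h2, h3⟩ := h
  have hB := app_ind (p := fun v => dm μ v = true) (dm_zero μ) (fun _ _ => dm_xor)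
    fun i hi => (h2 i hi).1
  have hL := app_ind (p := fun v => dm μ v = true) (dm_zero μ) (fun _ _ => dm_xor)
    fun i hi => (h2 i hi).2.1
  have hQ := app_ind (p := fun v => v < 2 ^ x.d) (Nat.two_pow_pos _)
    (fun _ _ => Nat.xor_lt_two_pow) fun i hi => (h2 i hi).2.2
  have key : ∀ v < 4096, dm μ v = true →
      v = app x.L (app x.Q v) ^^^ (app x.B v ^^^ app x.A (app x.B v)) := fun v hv hd => by
    have h4 : mm (x.A ^^^ mI) x.B ^^^ mm x.L x.Q = T := h1
    conv_lhs => rw [← hT v hv hd, ← h4, app_add, app_mm _ _ hv, app_mm _ _ hv, app_add,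
      app_mI (app_lt _ _)]
    ac_rfl
  have k1 : ∀ v < 4096, dm μ v = true → Pr v → Pr (app x.L (app x.Q v)) := fun v hv hd p => by
    have := htr v hv _ (app_lt _ _) hd (hB v hv) p
    nth_rw 1 [key v hv hd] at this
    rwa [Nat.xor_assoc, Nat.xor_self, Nat.xor_zero] at this
  have k2 := Idx.bfs_sound (act := app) (fs := x.gens.map fun g => mm x.Q (mm g.1 x.L))
    (P := fun i => i < 4096 ∧ Pr (app x.L i)) (fun U hU i hi => by
      obtain ⟨g, hg, rfl⟩ := List.mem_map.1 hU
      obtain ⟨a1, a2⟩ := hmv g hg _ (app_lt _ _) (hL i hi.1) hi.2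
      refine ⟨app_lt _ _, ?_⟩
      rw [app_mm _ _ hi.1, app_mm _ _ hi.1]
      exact k1 _ (app_lt _ _) a1 a2) x.d 30
  have k3 : ∀ a, (Idx.imgs (fun v _ => app x.Q v) (x.reps.map Prod.fst) 0).testBit a = true →
      a < 4096 ∧ Pr (app x.L a) := fun a ha => by
    obtain ⟨v, hv, rfl⟩ := (Idx.testBit_imgs _ _ _ _).1 ha
    obtain ⟨r, hr, rfl⟩ := List.mem_map.1 hv
    obtain ⟨a1, a2, a3⟩ := hrep r hr
    exact ⟨app_lt _ _, k1 _ a1 a2 a3⟩
  intro v hv hd
  rw [key v hv hd]
  refine htr _ (app_lt _ _) _ (app_lt _ _) (hL _ (app_lt _ _)) (hB v hv) ?_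
  rcases h3 _ (hQ v hv) with e | e
  · exact (k2 _ _ k3 k3 _ e).2
  · exact htest _ (app_lt _ _) (hL _ e.1) e.2

/-- The check for the order of a matrix. -/
noncomputable def ordOK (A m : ℕ) : Bool :=
  and' (Nat.blt 0 m) (and' (Nat.beq (mpow A m) mI)
    (allLT m fun i => or' (Nat.beq i 0) (not' (Nat.beq (mpow A i) mI))))

theorem isOrd_of {A m : ℕ} (h : ordOK A m = true) : Ord.IsOrd A m := by
  simp only [ordOK, and'_eq_true, allLT_iff, beq_iff, blt_iff, or'_eq_true, not'_eq_true] at h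
  exact ⟨h.1, h.2.1, fun i h0 hi => (h.2.2 i hi).resolve_left h0.ne'⟩

/-- The sum of the images. -/
noncomputable def pv (A : ℕ) (k : ℕ → Bool) (n : ℕ) : ℕ → ℕ → Bool :=
  Nat.rec (motive := fun _ => ℕ → ℕ → Bool) (fun _ a => k a)
    (fun _ ih x a => force (app A x) fun x' => force (Nat.xor a x) (ih x')) n

theorem pv_eq (A c : ℕ) (k : ℕ → Bool) (n i : ℕ) :
    pv A k n ((app A)^[i] c) (Ord.accV A c i) = k (Ord.accV A c (i + n)) := by
  induction n generalizing i with
  | zero => rfl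
  | succ n ih =>
    have : ∀ x a, pv A k (n + 1) x a = force (app A x) fun x' => force (a ^^^ x) (pv A k n x') :=
      fun _ _ => rfl
    rw [this, force_eq, force_eq, ← Function.iterate_succ_apply' (app A), ← Ord.accV, ih,
      Nat.succ_add_eq_add_succ]

theorem pv_eq' (A c : ℕ) (k : ℕ → Bool) (n : ℕ) : pv A k n c 0 = k (Ord.accV A c n) := by
  have := pv_eq A c k n 0
  rwa [zero_add] at this

/-- The sum of the images and the sign. -/
noncomputable def pw (A o q : ℕ) (k : ℕ → ℕ → Bool) (n : ℕ) : ℕ → ℕ → ℕ → ℕ → Bool :=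
  Nat.rec (motive := fun _ => ℕ → ℕ → ℕ → ℕ → Bool) (fun _ _ a s => k a s)
    (fun _ ih i x a s => force (Nat.succ i) fun i' => force (app A x) fun x' =>
      force (Nat.xor a x) fun a' =>
        force (Nat.xor (Nat.xor s (beta a x)) (Nat.mul (Nat.land i o) q)) (ih i' x' a')) n

theorem pw_eq (A c o : ℕ) (k : ℕ → ℕ → Bool) (n i : ℕ) :
    pw A o (qf c) k n i ((app A)^[i] c) (Ord.accV A c i) (Ord.sgn A c o i) =
      k (Ord.accV A c (i + n)) (Ord.sgn A c o (i + n)) := by
  induction n generalizing i with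
  | zero => rfl
  | succ n ih =>
    have : ∀ i x a s, pw A o (qf c) k (n + 1) i x a s = force (i + 1) fun i' =>
        force (app A x) fun x' => force (a ^^^ x) fun a' =>
        force (s ^^^ beta a x ^^^ (i &&& o) * qf c) (pw A o (qf c) k n i' x' a') :=
      fun _ _ _ _ => rfl
    rw [this, force_eq, force_eq, force_eq, force_eq, ← Function.iterate_succ_apply' (app A),
      ← Ord.accV, ← Ord.sgn, ih, add_right_comm, add_assoc]

/-- The test for `QZ`. -/
noncomputable def tz (A o m c : ℕ) : Bool :=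
  force (qf c) fun q => pw A o q (fun a s => ite' (Nat.beq a 0)
    (or' (Nat.beq (Nat.mod m 2) 1) (Nat.beq s 1)) (Nat.beq (qf a) 1)) m 0 c 0 0

theorem tz_iff (A o m c : ℕ) : tz A o m c = true ↔ Ord.QZ A c o m := by
  have := pw_eq A c o (fun a s => ite' (Nat.beq a 0)
    (or' (Nat.beq (Nat.mod m 2) 1) (Nat.beq s 1)) (Nat.beq (qf a) 1)) m 0
  rw [zero_add] at this
  rw [tz, force_eq, Ord.QZ]
  refine (congrArg (· = true) this).to_iff.trans ?_
  rw [ite'_eq]
  simp only [beq_iff]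
  split_ifs
  · rw [or'_eq_true, beq_iff, beq_iff]; rfl
  · exact beq_iff _ _

end Cfsg.Agent.J4.Cl
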