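import Cfsg.Agent.J4.Ten1

/-! Elementary abelian subgroups of order `2 ^ 10` of `H`. -/

set_option autoImplicit false

namespace Cfsg.Agent.J4

open Cfsg Cfsg.Agent.Comp Cfsg.Agent.Spor Cfsg.Agent.Spor.M24C Subgroup VA TN
open scoped Pointwise

variable {G : Type*} [Group G] {z : G} {P : Subgroup G}

namespace MM

variable [Finite G] (h : MM z P)
include h

omit [Finite G] in
theorem card_cent_le {c : ℕ} (hc : okM c = true) (k : M24) {a : Finset GolayPt} (ha : Even a.card)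
    {X : Subgroup G} (hV : X ≤ h.V) (hX : ∀ v ∈ X, h.nu a * h.lam (k * mc c * k⁻¹) * v *
      (h.nu a * h.lam (k * mc c * k⁻¹))⁻¹ = v) :
    Nat.card X ≤ cntPow 12 (fun j => and' (Nat.beq (par j) 0) (Nat.beq (commI c j) 0)) := by
  classical
  rw [cntPow_eq]
  refine le_trans (Set.ncard_le_ncard (s := (X : Set G)) (t := (((Finset.range (2 ^ 12)).filter
    fun j => and' (Nat.beq (par j) 0) (Nat.beq (commI c j) 0) = true).image
      fun j => h.nu (k • setOf' (j <<< 12)) : Finset G)) (fun v hv => ?_) (Set.toFinite _)) ?_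
  · obtain ⟨b, hb, rfl⟩ := (h.mem_V v).1 (hV hv)
    obtain ⟨j, hj, e⟩ := exists_rep (k⁻¹ • b)
    have h0 := (even_shift hj).1 (even_of_symmDiff_mem (even_smul _ hb) e)
    have h1 := hX _ hv
    rw [h.conj_nu ha hb, h.nu_eq_iff (even_smul _ hb) hb] at h1
    have h2 := cong_smul k⁻¹ (cong_symm h1)
    rw [mul_smul, mul_smul, inv_smul_smul] at h2
    simp only [Finset.coe_image, Finset.coe_filter, Finset.mem_range, Set.mem_image,
      Set.mem_ofPred_eq, and'_eq_true, beq_iff]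
    refine ⟨j, ⟨hj, h0, commI_eq_zero hc hj h0
      (cong_trans (cong_symm e) (cong_trans h2 (cong_smul _ e)))⟩, ?_⟩
    rw [h.nu_eq_iff (even_smul _ ((even_shift hj).2 h0)) hb]
    simpa using cong_smul k (cong_symm e)
  · rw [Set.ncard_coe_finset]
    exact Finset.card_image_le

omit [Finite G] in
theorem card_le_128 {m : G} (hm : m ∈ h.M) (h2 : m * m = 1) (hn : m ∉ h.V) {X : Subgroup G}
    (hV : X ≤ h.V) (hX : ∀ v ∈ X, m * v * m⁻¹ = v) : Nat.card X ≤ 128 := by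
  obtain ⟨a, g, ha, rfl⟩ := (h.mem_M m).1 hm
  have hg := orderOf_two_iff.2 ⟨fun e => hn (by
    rw [e, map_one, mul_one]; exact h.nu_mem_V ha), ((h.sq_eq_one_iff ha g).1 h2).1⟩
  rcases card_fix_invol hg with h8 | h0
  · obtain ⟨k, rfl⟩ := conj_gA hg h8
    exact (h.card_cent_le okM_gA k ha hV hX).trans (by decide +kernel)
  · obtain ⟨k, rfl⟩ := conj_gB hg h0
    exact (h.card_cent_le okM_gB k ha hV hX).trans (by decide +kernel)

theorem le_V_of_fixS {A : Subgroup G} (hA : A ≤ h.H) (h2 : ∀ a ∈ A, a * a = 1)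
    (hc : 2 ^ 10 ≤ Nat.card A) (hF : ∀ a ∈ A, h.ρ a ∈ fixS (setOf' oct0)) (hE : A ⊓ h.E ≤ h.V)
    (h64 : 64 ≤ Nat.card ↥(A ⊓ h.E)) : A ≤ h.V := by
  have comm : ∀ a ∈ A, ∀ b ∈ A, a * b * a⁻¹ = b := fun a ha b hb => by
    rw [comm_of_sq (h2 a ha) (h2 b hb) (h2 _ (mul_mem ha hb)), mul_inv_cancel_right]
  have k1 : ∀ a ∈ A, ∀ w ∈ wB, a * h.s w * a⁻¹ = h.s w ∨ a * h.s w * a⁻¹ = h.s w * z :=
    fun a ha w hw => by
      obtain ⟨v, hv, j, hj, k, r, rfl⟩ := h.exists_of_fixS (hA ha) (h2 a ha) (hF a ha)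
      rw [r.conj_s hv (wB_lt w hw), HM.LM_fix hj w hw]
      rcases HM.z_pow_cases (z := z) (xor_bit_lt (mul_bit_lt (outC_lt (LC j)) (qf_lt w))
        (bf_lt v w)) with e | e <;> simp [e]
  have k2 : ∀ a ∈ A, a ∉ h.V → h.V ⊓ h.E ⊓ centralizer {a} ≤ A := fun a ha hn => by
    have h1 : A ⊓ h.E ≤ h.V ⊓ h.E ⊓ centralizer {a} := fun x hx => ⟨⟨hE hx, hx.2⟩,
      mem_centralizer_singleton_iff.2 (mul_inv_eq_iff_eq_mul.1 (comm x hx.1 a ha))⟩
    have h3 : h.V ⊓ h.E ⊓ centralizer {a} ≠ h.V ⊓ h.E := fun e => hn (h.toHM.mem_V.2 ⟨hA ha,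
      fun w hw => mem_centralizer_singleton_iff.1 (e.ge ⟨(h.s_mem_V (wB_lt w hw)).2 (wB_mem w hw),
        h.s_mem_E (wB_lt w hw)⟩).2⟩)
    have h4 := Grp.card_mul_relIndex (inf_le_left : h.V ⊓ h.E ⊓ centralizer {a} ≤ _)
    have h5 : (h.V ⊓ h.E ⊓ centralizer {a}).relIndex (h.V ⊓ h.E) ≠ 1 := fun e =>
      h3 (le_antisymm inf_le_left (relIndex_eq_one.1 e))
    have h6 := h.card_inf_E_le h.V_sq h.z_mem_V
    have h7 : 0 < Nat.card ↥(h.V ⊓ h.E) := Nat.card_pos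
    rw [← eq_of_le_of_card_ge h1 (by
      generalize (h.V ⊓ h.E ⊓ centralizer {a}).relIndex (h.V ⊓ h.E) = n at *
      rcases n with _ | _ | n <;> [omega; omega; nlinarith])]
    exact inf_le_left
  intro a ha
  by_contra hn
  have h3 : Nat.card A ≤ 2 * Nat.card ↥(A ⊓ h.V) :=
    TT.card_le_two_mul_of_mul_mem inf_le_left fun x hx y hy hx' hy' => ⟨mul_mem hx hy,
      h.toHM.mem_V.2 ⟨hA (mul_mem hx hy), fun w hw => by
        have hw' : h.s w ∈ h.V ⊓ h.E := ⟨(h.s_mem_V (wB_lt w hw)).2 (wB_mem w hw),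
          h.s_mem_E (wB_lt w hw)⟩
        symm
        rw [← mul_inv_eq_iff_eq_mul]
        by_cases e : h.s w ∈ A
        · exact comm _ (mul_mem hx hy) _ e
        have k3 : ∀ x ∈ A, x ∉ A ⊓ h.V → x * h.s w * x⁻¹ = h.s w * z := fun x hx hx' =>
          (k1 x hx w hw).resolve_left fun e' => e (k2 x hx (fun e => hx' ⟨hx, e⟩) ⟨hw',
            mem_centralizer_singleton_iff.2 (mul_inv_eq_iff_eq_mul.1 e').symm⟩)
        calc _ = x * (y * h.s w * y⁻¹) * x⁻¹ := by group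
          _ = x * h.s w * x⁻¹ * (x * z * x⁻¹) := by rw [k3 y hy hy']; group
          _ = _ := by
            rw [k3 x hx hx', h.mem_H.1 (hA hx), mul_inv_cancel_right, mul_assoc, h.z_sq, mul_one]⟩⟩
  have h4 := h.card_le_128 ((h.mem_M_iff (hA ha)).2 (fixS_le_stabilizer _ (hF a ha))) (h2 a ha) hn
    (X := A ⊓ h.V) inf_le_right fun v hv => comm a ha v hv.1
  omega

theorem class_ten_aux {A : Subgroup G} (hA : A ≤ h.H) (h2 : ∀ a ∈ A, a * a = 1) (hz : z ∈ A)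
    (hc : 2 ^ 10 ≤ Nat.card A) (h0 : mc (LC 1) ∈ h.img A) :
    A ≤ h.V ∨ ∃ k ∈ h.K, ∀ w ∈ wO, k * h.s w * k⁻¹ ∈ A := by
  classical
  have comm : ∀ a ∈ A, ∀ b ∈ A, a * b = b * a := fun a ha b hb =>
    comm_of_sq (h2 a ha) (h2 b hb) (h2 _ (mul_mem ha hb))
  have comm' : ∀ x ∈ h.img A, ∀ y ∈ h.img A, x * y * x⁻¹ = y := fun x hx y hy => by
    obtain ⟨a, ha, rfl⟩ := (h.mem_img hA).1 hx
    obtain ⟨b, hb, rfl⟩ := (h.mem_img hA).1 hy
    rw [← h.ρ_conj (hA ha) (hA hb), comm a ha b hb, mul_inv_cancel_right]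
  have sq' : ∀ x ∈ h.img A, x * x = 1 := fun x hx => by
    obtain ⟨a, ha, rfl⟩ := (h.mem_img hA).1 hx
    rw [← h.ρ_mul a (hA ha) a (hA ha), h2 a ha, h.ρ_one]
  obtain ⟨U, mU⟩ : ∃ U : Finset ℕ, ∀ {v}, v ∈ U ↔ v < 4096 ∧ h.s v ∈ A :=
    ⟨(Finset.range 4096).filter fun v => h.s v ∈ A, by simp⟩
  have data : ∀ x ∈ h.img A, ∃ j < 120, code (x : Equiv.Perm GolayPt) = LC j ∧ (x ∈ M22' ↔ j < 52) ∧
      ∃ M, (M = liftK (LC j) ∨ M = mm mD (liftK (LC j)) ∨ M = mm mD2 (liftK (LC j))) ∧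
        mm M M = mI ∧ ∀ u ∈ U, app M u = u := fun x hx => by
    obtain ⟨a, ha, rfl⟩ := (h.mem_img hA).1 hx
    obtain ⟨j, hj, e⟩ := exists_LC (h.ρ_mem a (hA ha)) (comm' _ hx _ h0) (sq' _ hx)
    refine ⟨j, hj, e, by rw [← outC_eq_zero_iff (h.ρ_mem a (hA ha)), e, outC_LC hj], ?_⟩
    obtain ⟨v, hv, k, hk, rfl⟩ := h.decomp (hA ha)
    obtain ⟨M, r⟩ := h.exists_R hk
    rw [r.ρ_s_mul hv] at e
    rw [e] at r
    exact ⟨M, r.cases, r.mat_sq hv (h2 _ ha), fun u hu =>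
      ((r.comm_s_iff hv (mU.1 hu).1).1 (comm _ (mU.1 hu).2 _ ha)).1⟩
  have hU1 : ∀ u ∈ U, app mDec u < 256 := by
    obtain ⟨j, hj, e, -, M, m1, m2, m3⟩ := data _ h0
    rw [code_mc_LC (by norm_num)] at e
    rw [← e] at m1
    rw [lift_LM (by norm_num) m1 m2] at m3
    exact fun u hu => dec_lt (mU.1 hu).1 (m3 u hu)
  have inj : Set.InjOn (app mDec) U := fun u hu u' hu' e => by
    rw [← enc_dec (mU.1 hu).1, e, enc_dec (mU.1 hu').1]
  have hUc : ∀ p : ℕ → Bool, (∀ u ∈ U, p (app mDec u) = true) →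
      U.card ≤ ((Finset.range 256).filter fun i => p i = true).card := fun p hp =>
    Finset.card_le_card_of_injOn (app mDec) (fun u hu =>
      Finset.mem_coe.2 (Finset.mem_filter.2 ⟨Finset.mem_range.2 (hU1 u hu), hp u hu⟩)) inj
  have c1 := h.card_eq_mul_img hA h2
  have c2 := h.card_inf_E_le h2 hz
  have mE : ∀ g ∈ A ⊓ h.E, ∃ v ∈ U, ∃ e < 2, g = h.s v * z ^ e := fun g hg => by
    obtain ⟨v, hv, e, he, rfl⟩ := h.mem_E'.1 hg.2
    exact ⟨v, mU.2 ⟨hv, (mul_mem_cancel_right (pow_mem hz e)).1 hg.1⟩, e, he, rfl⟩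
  have c3 : Nat.card ↥(A ⊓ h.E) ≤ U.card * 2 := by
    rw [← SetLike.coe_sort_coe, Nat.card_coe_set_eq]
    refine le_trans (Set.ncard_le_ncard (t := ((U ×ˢ Finset.range 2).image
      fun p => h.s p.1 * z ^ p.2 : Finset G)) (fun g hg => ?_) (Set.toFinite _)) ?_
    · obtain ⟨v, hv, e, he, rfl⟩ := mE g hg
      rw [Finset.mem_coe, Finset.mem_image]
      exact ⟨(v, e), Finset.mem_product.2 ⟨hv, Finset.mem_range.2 he⟩, rfl⟩
    · rw [Set.ncard_coe_finset]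
      exact Finset.card_image_le.trans (by rw [Finset.card_product, Finset.card_range])
  have c4 := h.card_img_le hA
  have c5 : 8 ≤ Nat.card (h.img A) := by
    by_contra h4
    have := Nat.mul_le_mul c2 (show Nat.card (h.img A) ≤ 7 by omega)
    omega
  have c6 : Nat.card ↥(h.img A ⊓ M22') ≤ 16 :=
    card_le_of_sq inf_le_right fun x hx => sq' x hx.1
  have hMK : ∀ x ∈ h.img A, x ∈ M22' → ∃ i < 52, code (x : Equiv.Perm GolayPt) = LC i ∧
      ∀ u ∈ U, (MK i).testBit (app mDec u) = true := fun x hx hx' => by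
    obtain ⟨i, -, e, e', M, m1, m2, m3⟩ := data x hx
    rw [lift_LM (e'.1 hx') m1 m2] at m3
    exact ⟨i, e'.1 hx', e, fun u hu =>
      MK_spec (e'.1 hx') (hU1 u hu) (by rw [enc_dec (mU.1 hu).1, m3 u hu])⟩
  obtain ⟨j, hj2, hj, ⟨g, hg, ej⟩, mj⟩ : ∃ j, 2 ≤ j ∧ j < 52 ∧
      (∃ g ∈ h.img A, code (g : Equiv.Perm GolayPt) = LC j) ∧
        ∀ u ∈ U, (MK j).testBit (app mDec u) = true := by
    by_contra hn
    have := card_le_cnt (h.img A ⊓ M22') 2 (fun _ => true) fun x hx => by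
      obtain ⟨j, hj, e, hM⟩ := hMK x hx.1 hx.2
      refine ⟨j, ?_, e, rfl⟩
      by_contra h3
      exact hn ⟨j, by omega, hj, ⟨x, hx.1, e⟩, hM⟩
    rw [show cntLT 2 (fun _ => true) = 2 by decide +kernel] at this
    omega
  have inner : ∀ x ∈ h.img A, x ∈ M22' := fun x hx => by
    by_contra hn
    obtain ⟨i, hi, -, e', M, m1, -, m3⟩ := data x hx
    have h3 := outer_cnt' (U := U.image (app mDec))
      (by by_contra h4; exact hn (e'.2 (by omega))) hi hj2 hj m1 fun u' hu' => by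
        obtain ⟨u, hu, rfl⟩ := Finset.mem_image.1 hu'
        exact ⟨hU1 u hu, by rw [enc_dec (mU.1 hu).1, m3 u hu], mj u hu⟩
    rw [Finset.card_image_of_injOn inj] at h3
    have := Nat.mul_le_mul (show Nat.card ↥(A ⊓ h.E) ≤ 30 by omega)
      (show Nat.card (h.img A) ≤ 32 by omega)
    omega
  rw [inf_eq_left.2 inner] at c6
  have c7 : 64 ≤ Nat.card ↥(A ⊓ h.E) := by
    by_contra h3
    have := Nat.mul_le_mul (show Nat.card ↥(A ⊓ h.E) ≤ 63 by omega) c6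
    omega
  by_cases h16 : ∀ x ∈ h.img A, x ∈ fixS (setOf' oct0)
  · refine Or.inl (h.le_V_of_fixS hA h2 hc (fun a ha => h16 _ ((h.mem_img hA).2 ⟨a, ha, rfl⟩))
      (fun x hx => ?_) c7)
    obtain ⟨v, hv, e, -, rfl⟩ := mE x hx
    have h3 := (mem_fixS_setOf' (by decide) g).1 (h16 g hg)
    rw [ej, fix_LC (by omega)] at h3
    have h4 := MK_W hj2 h3 (hU1 v hv) (mj v hv)
    rw [enc_dec (mU.1 hv).1] at h4
    exact mul_mem ((h.s_mem_V (mU.1 hv).1).2 h4) (pow_mem h.z_mem_V e)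
  push Not at h16
  obtain ⟨x, hx, h3⟩ := h16
  obtain ⟨i, hi, ei, mi⟩ := hMK x hx (inner x hx)
  rw [mem_fixS_setOf' (by decide), ei, fix_LC (by omega)] at h3
  obtain ⟨k1, k2⟩ := inner_cnt (not_lt.1 h3) hi
  have c8 : Nat.card (h.img A) ≤ cntLT 52 fun l => Nat.ble 32 (pop 256 (MK i &&& MK l)) := by
    refine card_le_cnt _ 52 _ fun y hy => ?_
    obtain ⟨l, hl, e, ml⟩ := hMK y hy (inner y hy)
    refine ⟨l, hl, e, (ble_iff _ _).2 (le_trans (show 32 ≤ U.card by omega) ?_)⟩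
    rw [pop_eq]
    refine hUc _ fun u hu => ?_
    rw [Nat.testBit_and, mi u hu, ml u hu]
    rfl
  have c9 : 64 ≤ U.card := by
    by_contra h3
    have := Nat.mul_le_mul (show Nat.card ↥(A ⊓ h.E) ≤ 126 by omega) (le_trans c8 k1)
    omega
  have hEq : U.image (app mDec) = (Finset.range 256).filter fun l => (MK i).testBit l = true := by
    refine Finset.eq_of_subset_of_card_le (fun l hl => ?_) ?_
    · obtain ⟨u, hu, rfl⟩ := Finset.mem_image.1 hl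
      exact Finset.mem_filter.2 ⟨Finset.mem_range.2 (hU1 u hu), mi u hu⟩
    · rw [← pop_eq, Finset.card_image_of_injOn inj]
      have := (main_cnt (show 2 ≤ i by omega) hi).2.1
      omega
  obtain ⟨c, hc1, hc2⟩ := k2.resolve_left (by omega)
  obtain ⟨k, r⟩ := h.exists_R_lift (mc_mem_A22 hc1)
  rw [(inH_A22 hc1).code_mc] at r
  refine Or.inr ⟨k, r.memK, fun w hw => ?_⟩
  obtain ⟨w1, w2⟩ := hc2 w hw
  obtain ⟨u, hu, e⟩ := Finset.mem_image.1 (hEq ▸ Finset.mem_filter.2 ⟨Finset.mem_range.2 w1, w2⟩ :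
    app mDec (app (liftK c) w) ∈ U.image (app mDec))
  rw [r.act w ((by decide : ∀ w ∈ wO, w < 4096) w hw), ← enc_dec (app_lt (liftK c) w), ← e,
    enc_dec (mU.1 hu).1]
  exact mul_mem (mU.1 hu).2 (pow_mem hz _)

/-- A self-centralising elementary abelian group of order `2 ^ 10` is of octad type. -/
theorem class_ten {A : Subgroup G} (h2 : ∀ a ∈ A, a * a = 1) (hc : Nat.card A = 2 ^ 10)
    (hs : centralizer (A : Set G) = A) :
    ∃ g : G, g * z * g⁻¹ ∈ A ∧ ∀ w ∈ wO, g * h.s w * g⁻¹ ∈ A := by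
  have key : ∀ {A : Subgroup G}, (∀ a ∈ A, a * a = 1) → Nat.card A = 2 ^ 10 →
      centralizer (A : Set G) = A → ∀ g : G,
      centralizer (A.map (MulAut.conj g).toMonoidHom : Set G) =
        A.map (MulAut.conj g).toMonoidHom := fun {A} _ _ hs g => by
    ext x
    rw [mem_centralizer_conj g (S0 := A) fun x => Grp.mem_map_conj_iff, hs, Grp.mem_map_conj_iff]
  obtain ⟨x, hx⟩ := h.exists_conj_le_B (isPGroup_of_sq h2)
  have hA : A.map (MulAut.conj x).toMonoidHom ≤ h.H := by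
    rintro _ ⟨a, ha, rfl⟩
    exact (hx a ha).1
  have hz : z ∈ A.map (MulAut.conj x).toMonoidHom :=
    (key h2 hc hs x).le fun a ha => h.mem_H.1 (hA ha)
  have c1 := h.card_eq_mul_img hA (sq_map_conj h2 x)
  have c2 := h.card_inf_E_le (sq_map_conj h2 x) hz
  have c4 := h.card_img_le hA
  rw [card_map_conj, hc] at c1
  obtain ⟨y, hy, hy1⟩ : ∃ y ∈ h.img (A.map (MulAut.conj x).toMonoidHom) ⊓ M22', y ≠ 1 := by
    by_contra hn
    push Not at hn
    rw [(eq_bot_iff_forall _).2 hn, card_bot] at c4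
    have := Nat.mul_le_mul c2 c4
    omega
  obtain ⟨a, ha, rfl⟩ := (h.mem_img hA).1 hy.1
  obtain ⟨u, hu, e⟩ := conj_LC1 hy.2 hy1 (by
    rw [← h.ρ_mul a (hA ha) a (hA ha), sq_map_conj h2 x a ha, h.ρ_one])
  obtain ⟨g, hg, rfl⟩ := h.ρ_surj hu
  have hA' : (A.map (MulAut.conj x).toMonoidHom).map (MulAut.conj g).toMonoidHom ≤ h.H := by
    rintro _ ⟨b, hb, rfl⟩
    exact mul_mem (mul_mem hg.1 (hA hb)) (inv_mem hg.1)
  have hz' : z ∈ (A.map (MulAut.conj x).toMonoidHom).map (MulAut.conj g).toMonoidHom :=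
    mem_map_conj.2 ⟨z, hz, by rw [h.mem_H.1 hg.1, mul_inv_cancel_right]⟩
  have hc' := (card_map_conj _ g).trans ((card_map_conj _ x).trans hc)
  rcases h.class_ten_aux hA' (sq_map_conj (sq_map_conj h2 x) g) hz' hc'.ge
    ((h.mem_img hA').2 ⟨_, mem_map_conj.2 ⟨a, ha, rfl⟩, by rw [h.ρ_conj hg.1 (hA ha), e]⟩) with
    h3 | ⟨k, hk, h3⟩
  · have h4 := key (sq_map_conj h2 x) ((card_map_conj _ x).trans hc) (key h2 hc hs x) g
    have h5 := card_le_of_le (show h.V ≤ _ from fun v hv => h4.le fun a ha => h.V_comm (h3 ha) hv)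
    rw [hc', h.card_V] at h5
    omega
  · simp only [Grp.mem_map_conj_iff] at h3 hz'
    refine ⟨x⁻¹ * g⁻¹ * k, ?_, fun w hw => by simpa [mul_assoc] using h3 w hw⟩
    rw [← mul_inv_cancel_right z k, ← h.mem_H.1 hk.1] at hz'
    simpa [mul_assoc] using hz'

end MM

end Cfsg.Agent.J4
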