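import Cfsg.Agent.J4.Ten2

/-! The elementary abelian group `A` of order `2 ^ 10` and the orbits of its normaliser. -/

set_option autoImplicit false

namespace Cfsg.Agent.J4

open Cfsg Cfsg.Agent.Comp Cfsg.Agent.Spor Cfsg.Agent.Spor.M24C Subgroup VA TN
open scoped Pointwise

variable {G : Type*} [Group G] {z : G} {P : Subgroup G}

theorem smul_of_fixS {o a : Finset GolayPt} {g : M24} (hg : g ∈ fixS o) (ha : a ⊆ o) :
    g • a = a := fixS_le_stabilizer a (fixS_anti ha hg)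

theorem even_aM {i : ℕ} (hi : i < 1024) : Even (setOf' (xorSel aB i)).card :=
  (even_setOf' (aM_spec hi).1).2 (aM_spec hi).2.1

theorem aM_sub {i : ℕ} (hi : i < 1024) : setOf' (xorSel aB i) ⊆ setOf' 5279 :=
  (setOf'_subset_iff (aM_spec hi).1).2 (aM_spec hi).2.2

theorem xor_lt10 {i j : ℕ} (hi : i < 1024) (hj : j < 1024) : i ^^^ j < 1024 :=
  Nat.xor_lt_two_pow (n := 10) hi hj

theorem card_orbit_mul [Finite G] (N : Subgroup G) (x : G) :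
    {v : G | ∃ n ∈ N, n * x * n⁻¹ = v}.ncard * Nat.card ↥(N ⊓ centralizer {x}) = Nat.card N := by
  rw [← Grp.card_inf_mul_relIndex' (centralizer {x}) N, inf_comm, mul_comm]
  congr 1
  have := MulAction.index_stabilizer ↥(N.map (ConjAct.toConjAct (G := G)).toMonoidHom) x
  have e1 : MulAction.orbit ↥(N.map (ConjAct.toConjAct (G := G)).toMonoidHom) x =
      {v : G | ∃ n ∈ N, n * x * n⁻¹ = v} := by
    ext v
    exact ⟨fun ⟨⟨_, n, hn, rfl⟩, e⟩ => ⟨n, hn, e⟩, fun ⟨n, hn, e⟩ => ⟨⟨_, n, hn, rfl⟩, e⟩⟩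
  rw [← e1, ← this, relIndex, ← index_comap_of_surjective _
    (f := (ConjAct.toConjAct (G := G)).toMonoidHom.subgroupMap N) (MonoidHom.subgroupMap_surjective _ N)]
  congr 1
  ext n
  rw [mem_subgroupOf, mem_centralizer_singleton_iff, ← mul_inv_eq_iff_eq_mul]
  rfl

namespace MM

section

variable (h : MM z P)

/-- The elementary abelian group of order `2 ^ 10`. -/
def A : Subgroup G where
  carrier := {x | ∃ a g, Even a.card ∧ a ⊆ setOf' 5279 ∧ g ∈ fixS (setOf' 5279) ∧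
    x = h.nu a * h.lam g}
  one_mem' := ⟨∅, 1, by simp, by simp, one_mem _, by rw [h.nu_empty, map_one, mul_one]⟩
  mul_mem' := by
    rintro _ _ ⟨a, g, ha, a1, hg, rfl⟩ ⟨b, k, hb, b1, hk, rfl⟩
    exact ⟨symmDiff a b, g * k, even_symmDiff ha hb,
      symmDiff_le_sup.trans (Finset.union_subset a1 b1), mul_mem hg hk,
      by rw [h.nu_lam_mul ha hb, smul_of_fixS hg b1]⟩
  inv_mem' := by
    rintro _ ⟨a, g, ha, a1, hg, rfl⟩
    exact ⟨a, g, ha, a1, hg, inv_eq_of_mul_eq_one_right ((h.sq_eq_one_iff ha g).2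
      ⟨mul_self_of_mem_fixS_octad o0_mem hg, by rw [smul_of_fixS hg a1]; exact cong_refl a⟩)⟩

/-- Coordinates on `A`. -/
noncomputable def ψ (i : ℕ) : G := h.nu (setOf' (xorSel aB i)) * h.lam (mc (qI i))

/-- The normaliser of `A`. -/
abbrev NA : Subgroup G := normalizer (h.A : Set G)

include h

theorem mem_A {x : G} : x ∈ h.A ↔ ∃ a g, Even a.card ∧ a ⊆ setOf' 5279 ∧ g ∈ fixS (setOf' 5279) ∧
    x = h.nu a * h.lam g := Iff.rfl
theorem A_sq : ∀ x ∈ h.A, x * x = 1 := by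
  rintro _ ⟨a, g, ha, a1, hg, rfl⟩
  exact (h.sq_eq_one_iff ha g).2
    ⟨mul_self_of_mem_fixS_octad o0_mem hg, by rw [smul_of_fixS hg a1]; exact cong_refl a⟩
theorem A_comm {a b : G} (ha : a ∈ h.A) (hb : b ∈ h.A) : a * b * a⁻¹ = b := by
  rw [comm_of_sq (h.A_sq a ha) (h.A_sq b hb) (h.A_sq _ (mul_mem ha hb)), mul_inv_cancel_right]
theorem A_le_M : h.A ≤ h.M := fun _ ⟨_, g, ha, _, _, e⟩ => e ▸ h.nu_lam_mem ha g
theorem ψ_mem {i : ℕ} (hi : i < 1024) : h.ψ i ∈ h.A :=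
  ⟨_, _, even_aM hi, aM_sub hi, qC_mem (shift6_lt hi), rfl⟩
theorem ψ_mul {i j : ℕ} (hi : i < 1024) (hj : j < 1024) : h.ψ i * h.ψ j = h.ψ (i ^^^ j) := by
  rw [ψ, ψ, ψ, h.nu_lam_mul (even_aM hi) (even_aM hj), qI_mul hi hj, xorSel_xor, setOf'_xor]
  exact congrArg (fun a => h.nu (symmDiff _ a) * _)
    (smul_of_fixS (qC_mem (shift6_lt hi)) (aM_sub hj))
theorem ψ_lt {i : ℕ} (hi : i < 64) : h.ψ i = h.nu (setOf' (xorSel aB i)) := by
  rw [ψ, (qI_eq_one (by omega)).2 hi, mc_oneC, map_one, mul_one]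
theorem ψ_zero : h.ψ 0 = 1 := by
  rw [h.ψ_lt (by norm_num)]
  exact (congrArg h.nu setOf'_zero).trans h.nu_empty
theorem ψ_mem_V {i : ℕ} (hi : i < 1024) : h.ψ i ∈ h.V ↔ i < 64 := by
  refine ⟨fun e => (qI_eq_one hi).1 ?_, fun e => h.ψ_lt e ▸ h.nu_mem_V (even_aM hi)⟩
  rw [← code_mc (okM_qI hi), h.lam_mem_V ((mul_mem_cancel_left (h.nu_mem_V (even_aM hi))).1 e),
    code_one']
theorem ψ_eq_one {i : ℕ} (hi : i < 1024) (e : h.ψ i = 1) : i = 0 := by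
  have h1 := (h.ψ_mem_V hi).1 (e ▸ one_mem _)
  rw [h.ψ_lt h1, h.nu_eq_one _ (even_aM hi), setOf'_mem_codeSets_iff (aM_spec hi).1] at e
  exact aM_isCW i h1 e
theorem ψ_inj {i j : ℕ} (hi : i < 1024) (hj : j < 1024) (e : h.ψ i = h.ψ j) : i = j :=
  xor_eq_zero (h.ψ_eq_one (xor_lt10 hi hj) (by rw [← h.ψ_mul hi hj, e, h.A_sq _ (h.ψ_mem hj)]))
theorem nu_mem_A {b : Finset GolayPt} (hb : Even b.card)
    (e : ∃ i < 64, symmDiff b (setOf' (xorSel aB i)) ∈ codeSets) : ∃ i < 64, h.nu b = h.ψ i :=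
  let ⟨i, hi, e⟩ := e
  ⟨i, hi, by rw [h.ψ_lt hi, h.nu_eq_iff hb (even_aM (by omega))]; exact e⟩
theorem ψ_shift {k : ℕ} (hk : k < 16) : h.ψ (k <<< 6) = h.lam (mc (qC k)) := by
  have : ∀ k < 16, xorSel aB (k <<< 6) = 0 := by decide
  have e : qI (k <<< 6) = qC k := congrArg qC (Nat.shiftLeft_shiftRight k 6)
  rw [ψ, this k hk, setOf'_zero, h.nu_empty, one_mul, e]
theorem exists_ψ {x : G} (hx : x ∈ h.A) : ∃ i < 1024, x = h.ψ i := by
  obtain ⟨a, g, ha, a1, hg, rfl⟩ := hx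
  obtain ⟨k, hk, rfl⟩ := exists_qC hg
  obtain ⟨i, hi, e⟩ := h.nu_mem_A ha (by simpa using vo_spec (maskOf_lt a) (vo_sub ha a1))
  have h1 : k <<< 6 < 1024 := by rw [Nat.shiftLeft_eq]; omega
  exact ⟨i ^^^ k <<< 6, xor_lt10 (i := i) (by omega) h1,
    by rw [e, ← h.ψ_shift hk, h.ψ_mul (by omega) h1]⟩
theorem ncard_ψ (m : ℕ) :
    {x | ∃ i < 1024, m.testBit i = true ∧ x = h.ψ i}.ncard = pop 1024 m := by
  rw [pop_eq, ← Set.ncard_coe_finset, ← Set.InjOn.ncard_image (f := h.ψ) fun i hi j hj e =>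
    h.ψ_inj (Finset.mem_range.1 (Finset.mem_filter.1 hi).1)
      (Finset.mem_range.1 (Finset.mem_filter.1 hj).1) e]
  congr 1
  ext x
  simp only [Set.mem_ofPred_eq, Finset.coe_filter, Finset.mem_range, Set.mem_image]
  exact ⟨fun ⟨i, h1, h2, e⟩ => ⟨i, ⟨h1, h2⟩, e.symm⟩, fun ⟨i, h1, e⟩ => ⟨i, h1.1, h1.2, e.symm⟩⟩
theorem card_A : Nat.card h.A = 2 ^ 10 := by
  have : (h.A : Set G) = h.ψ '' (Finset.range 1024 : Set ℕ) := by
    ext x
    simp only [Set.mem_image, Finset.mem_coe, Finset.mem_range]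
    exact ⟨fun hx => let ⟨i, hi, e⟩ := h.exists_ψ hx; ⟨i, hi, e.symm⟩,
      fun ⟨i, hi, e⟩ => e ▸ h.ψ_mem hi⟩
  rw [← SetLike.coe_sort_coe, Nat.card_coe_set_eq, this, Set.InjOn.ncard_image fun i hi j hj e =>
    h.ψ_inj (Finset.mem_range.1 hi) (Finset.mem_range.1 hj) e, Set.ncard_coe_finset,
    Finset.card_range]
  norm_num
theorem ψ_W {i : ℕ} (hi : i < 16) : h.ψ i = h.s (xorSel wB i) := by
  rw [h.ψ_lt (by omega), h.s_W (by omega), (by decide : ∀ i < 16, xorSel aB i = xorSel phiW i) i hi]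
theorem ψ_z : h.ψ 16 = z := (h.ψ_lt (by norm_num)).trans h.nu_z
theorem s_mul0 {v w : ℕ} (e : and' (Nat.blt v 4096) (and' (Nat.blt w 4096)
    (Nat.beq (beta v w) 0)) = true) : h.s v * h.s w = h.s (Nat.xor v w) := by
  simp only [and'_eq_true, blt_iff, beq_iff] at e
  rw [h.s_mul v e.1 w e.2.1, e.2.2, pow_zero, mul_one]
  rfl
theorem lam_four {i j k l : ℕ} (hi : i < 6) (hj : j < 6) (hk : k < 6) (hl : l < 6) :
    h.lam (mc (mulC (mulC (mulC (muE.getD i 0) (muE.getD j 0)) (muE.getD k 0)) (muE.getD l 0))) =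
      h.s (w1B.getD i 0) * h.s (w1B.getD j 0) * h.s (w1B.getD k 0) * h.s (w1B.getD l 0) := by
  have : ∀ i < 6, code (mc (muE.getD i 0) : Equiv.Perm GolayPt) = muE.getD i 0 := fun i hi =>
    code_mc ((by decide +kernel : ∀ i < 6, okM (muE.getD i 0) = true) i hi)
  rw [← h.lam_E i hi, ← h.lam_E j hj, ← h.lam_E k hk, ← h.lam_E l hl, ← map_mul, ← map_mul,
    ← map_mul, ← mc_code (_ * _), code_mul', code_mul', code_mul', this i hi, this j hj, this k hk,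
    this l hl]
theorem ψ_64 : h.lam (mc (qC 1)) = h.s 1987 := by
  have := h.lam_four (i := 1) (j := 2) (k := 3) (l := 4) (by norm_num) (by norm_num) (by norm_num)
    (by norm_num)
  rw [h.s_mul0 (by decide +kernel), h.s_mul0 (by decide +kernel),
    h.s_mul0 (by decide +kernel)] at this
  exact (congrArg (fun c => h.lam (mc c)) (by decide +kernel)).trans this
theorem ψ_128 : h.lam (mc (qC 2)) = h.s 2869 := by
  have := h.lam_four (i := 0) (j := 2) (k := 3) (l := 5) (by norm_num) (by norm_num) (by norm_num)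
    (by norm_num)
  rw [h.s_mul0 (by decide +kernel), h.s_mul0 (by decide +kernel),
    h.s_mul0 (by decide +kernel)] at this
  exact (congrArg (fun c => h.lam (mc c)) (by decide +kernel)).trans this
theorem z_mem_A : z ∈ h.A := by
  have := h.ψ_mem (i := 16) (by norm_num)
  rwa [h.ψ_z] at this
theorem lam_mem_A {g : M24} (hg : g ∈ fixS (setOf' 5279)) : h.lam g ∈ h.A :=
  ⟨∅, g, by simp, by simp, hg, by rw [h.nu_empty, one_mul]⟩
theorem s_wO_mem : ∀ w ∈ wO, h.s w ∈ h.A := by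
  simp only [wO, List.forall_mem_cons]
  exact ⟨h.ψ_W (i := 1) (by norm_num) ▸ h.ψ_mem (by norm_num),
    h.ψ_W (i := 2) (by norm_num) ▸ h.ψ_mem (by norm_num),
    h.ψ_W (i := 4) (by norm_num) ▸ h.ψ_mem (by norm_num),
    h.ψ_W (i := 8) (by norm_num) ▸ h.ψ_mem (by norm_num),
    h.ψ_64 ▸ h.lam_mem_A (qC_mem (by norm_num)), h.ψ_128 ▸ h.lam_mem_A (qC_mem (by norm_num)),
    by simp⟩
theorem s_span_mem (l : List ℕ) (hl : ∀ w ∈ l, w < 4096 ∧ h.s w ∈ h.A) (i : ℕ) :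
    xorSel l i < 4096 ∧ h.s (xorSel l i) ∈ h.A := by
  induction l generalizing i with
  | nil => exact ⟨by simp [xorSel], by rw [show xorSel [] i = 0 from rfl, h.s_zero]; exact one_mem _⟩
  | cons b l ih =>
    obtain ⟨h1, h2⟩ := ih (fun w hw => hl w (List.mem_cons_of_mem _ hw)) (i / 2)
    obtain ⟨h3, h4⟩ := hl b List.mem_cons_self
    rw [xorSel]
    split_ifs
    · exact ⟨xor_lt h3 h1, (mul_mem_cancel_right (pow_mem h.z_mem_A _)).1
        (h.s_mul _ h3 _ h1 ▸ mul_mem h4 h2)⟩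
    · rw [Nat.zero_xor]; exact ⟨h1, h2⟩

end

variable [Finite G] (h : MM z P)
include h

theorem mem_A_of_cent {x : G} (hz : x * z * x⁻¹ = z) (hx : ∀ w ∈ wO, x * h.s w * x⁻¹ = h.s w) :
    x ∈ h.A := by
  have hC : ∀ y, y ∈ centralizer {x} ↔ x * y * x⁻¹ = y := fun y => by
    rw [mem_centralizer_singleton_iff, mul_inv_eq_iff_eq_mul, eq_comm]
  simp only [wO, List.forall_mem_cons, ← hC] at hx hz
  obtain ⟨h1, h2, h4, h8, h64, h128, -⟩ := hx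
  rw [← show h.ψ 1 = h.s 7 from h.ψ_W (by norm_num)] at h1
  rw [← show h.ψ 2 = h.s 81 from h.ψ_W (by norm_num)] at h2
  rw [← show h.ψ 4 = h.s 161 from h.ψ_W (by norm_num)] at h4
  rw [← show h.ψ 8 = h.s 265 from h.ψ_W (by norm_num)] at h8
  rw [← h.ψ_z] at hz
  have k1 : ∀ i < 2 ^ 5, h.ψ i ∈ centralizer {x} := bits_induction (h.ψ_zero ▸ one_mem _)
    fun i hi v hv e => by
      rw [← h.ψ_mul (by omega) ((Nat.pow_lt_pow_right (by norm_num) hi).trans (by norm_num))]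
      refine mul_mem e ?_
      interval_cases i
      exacts [h1, h2, h4, h8, hz]
  obtain ⟨b, g, hb, rfl⟩ := (h.mem_M x).1 (h.cent_duad_le (a := setOf' 3) (by decide +kernel)
    (mem_centralizer_singleton_iff.2 (mem_centralizer_singleton_iff.1
      (h.ψ_lt (i := 2) (by norm_num) ▸ h2)).symm))
  have k2 : ∀ i m, and' (Nat.blt i 32) (and' (Nat.blt m 16777216) (and' (Nat.beq (pop 24 m) 2)
      (isCW (Nat.xor (xorSel aB i) m)))) = true → g • setOf' m = setOf' m := fun i m e => by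
    simp only [and'_eq_true, blt_iff, beq_iff, ← card_setOf'] at e
    have h3 := (hC _).1 (k1 i e.1)
    have h5 := aM_spec (i := i) (by omega)
    rw [h.ψ_lt (by omega), (h.nu_eq_iff (even_aM (by omega)) (by rw [e.2.2.1]; decide)).2 (by
      rw [← setOf'_xor, setOf'_mem_codeSets_iff (Nat.xor_lt_two_pow h5.1 e.2.1)]
      exact e.2.2.2)] at h3
    exact (h.conj_duad_iff hb e.2.2.1 g).1 h3
  have k3 : ∀ {a b : ℕ}, g • setOf' a = setOf' a → g • setOf' b = setOf' b → ∀ p : GolayPt,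
      (setOf' (a &&& b) = {p} ∨ setOf' a \ setOf' b = {p}) → g • p = p := by
    intro a b e1 e2 p e
    rw [← Finset.singleton_inj, ← Finset.smul_finset_singleton]
    rcases e with e | e <;> rw [← e]
    · rw [setOf'_land, Finset.smul_finset_inter, e1, e2]
    · rw [Finset.smul_finset_sdiff, e1, e2]
  have d1 := k2 2 3 (by decide +kernel)
  have d2 := k2 4 5 (by decide +kernel)
  have d3 := k2 9 4112 (by decide +kernel)
  have d4 := k2 30 1040 (by decide +kernel)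
  have hg : g ∈ fixS (setOf' 5279) := by
    rw [← fixS_six_eq (E := {some 0, some 1, some 2, some 4, some 10, some 12}) (by decide) o0_mem
      (by decide +kernel), mem_fixS]
    simp only [Finset.mem_insert, Finset.mem_singleton, forall_eq_or_imp, forall_eq]
    exact ⟨k3 d1 d2 _ (by decide +kernel), k3 d1 d2 _ (by decide +kernel),
      k3 d2 d1 _ (by decide +kernel), k3 d3 d4 _ (by decide +kernel),
      k3 d4 d3 _ (by decide +kernel), k3 d3 d4 _ (by decide +kernel)⟩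
  have k4 : ∀ k < 16, h.lam (mc (qC k)) ∈ centralizer {h.nu b * h.lam g} →
      symmDiff b (mc (qC k) • b) ∈ codeSets := fun k hk e => by
    have h3 := h.A_comm (h.lam_mem_A hg) (h.lam_mem_A (qC_mem hk))
    rw [hC, mul_inv_rev, mul_assoc (h.nu b), mul_assoc (h.nu b), ← mul_assoc (_ * _), h3,
      ← mul_assoc, mul_inv_eq_iff_eq_mul, eq_comm, ← mul_inv_eq_iff_eq_mul, h.lam_conj _ _ hb,
      h.nu_eq_iff (even_smul _ hb) hb] at e
    exact cong_symm e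
  obtain ⟨i, hi, e⟩ := h.nu_mem_A hb (vo_cent hb (k4 1 (by norm_num) (h.ψ_64 ▸ h64))
    (k4 2 (by norm_num) (h.ψ_128 ▸ h128)))
  exact mul_mem (e ▸ h.ψ_mem (by omega)) (h.lam_mem_A hg)

theorem cent_A : centralizer (h.A : Set G) = h.A :=
  le_antisymm (fun _ hx => h.mem_A_of_cent (mul_inv_eq_iff_eq_mul.2 (hx _ h.z_mem_A).symm)
    fun w hw => mul_inv_eq_iff_eq_mul.2 (hx _ (h.s_wO_mem w hw)).symm)
    fun _ hx _ hy => mul_inv_eq_iff_eq_mul.1 (h.A_comm hy hx)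

theorem exists_conj_A {B : Subgroup G} (h1 : IsElementaryAbelian 2 B) (hc : Nat.card B = 2 ^ 10)
    (hs : centralizer (B : Set G) = B) : ∃ g : G, B = h.A.map (MulAut.conj g).toMonoidHom := by
  have h2 := sq_of_elab h1
  obtain ⟨g, h3, h4⟩ := h.class_ten h2 hc hs
  have key : ∀ b ∈ B, ∀ y, g * y * g⁻¹ ∈ B → g⁻¹ * b * g * y * (g⁻¹ * b * g)⁻¹ = y :=
    fun b hb y hy => by
      calc _ = g⁻¹ * (b * (g * y * g⁻¹)) * b⁻¹ * g := by group
        _ = _ := by rw [comm_of_sq (h2 b hb) (h2 _ hy) (h2 _ (mul_mem hb hy))]; group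
  exact ⟨g, eq_of_le_of_card_ge (fun b hb => Grp.mem_map_conj_iff.2 (h.mem_A_of_cent
    (key b hb z h3) fun w hw => key b hb _ (h4 w hw))) (by rw [card_map_conj, h.card_A, hc])⟩

theorem mem_NA {n : G} : n ∈ h.NA ↔ ∀ x ∈ h.A, n * x * n⁻¹ ∈ h.A :=
  ⟨fun ha v hv => (mem_normalizer_iff.1 ha v).1 hv, fun ha => mem_normalizer_fintype ha⟩

omit [Finite G] in
theorem conj_ψ {b c M : ℕ} (e : actOK b c M = true) {i : ℕ} (hi : i < 1024) : app M i < 1024 ∧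
    h.nu (setOf' b) * h.lam (mc c) * h.ψ i * (h.nu (setOf' b) * h.lam (mc c))⁻¹ =
      h.ψ (app M i) := by
  simp only [actOK, and'_eq_true, blt_iff, beq_iff, allB_iff, force_eq] at e
  obtain ⟨h1, h2, h3, h4⟩ := e
  obtain ⟨h5, h6, h7⟩ := h4 i hi
  have hb := (even_setOf' h2).2 h3
  have h8 : mc c * mc (qI i) * (mc c)⁻¹ = mc (qI (app M i)) :=
    eq_iff_code.2 (by rw [code_conj', code_mc h1, code_mc (okM_qI hi), code_mc (okM_qI h5), h6])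
  have hl : ∀ {c}, okM c = true → ∀ j, imgC c j < 2 ^ 24 := fun {c} hc j => by
    have := imgC_lt (mc c : Equiv.Perm GolayPt) j
    rwa [code_mc hc] at this
  have h9 := (syn_eq_iff (aM_spec h5).1 (Nat.xor_lt_two_pow (Nat.xor_lt_two_pow h2 (hl h1 _))
    (hl (okM_qI h5) _))).1 h7
  rw [setOf'_xor, setOf'_xor, ← mc_smul_setOf' h1, ← mc_smul_setOf' (okM_qI h5)] at h9
  have e1 := even_symmDiff hb (even_smul (mc c) (even_aM hi))
  refine ⟨h5, ?_⟩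
  rw [ψ, ψ, (h.nu_eq_iff (even_aM h5) (even_symmDiff e1 (even_smul _ hb))).2 h9,
    h.nu_lam_mul hb (even_aM hi), h.nu_mul _ _ e1 (even_smul _ hb), ← h.lam_conj _ _ hb, ← h8,
    mul_inv_rev, h.nu_inv hb, map_mul, map_mul, map_mul, map_inv]
  group

theorem orb_conj {r i : ℕ} (hr : r < 1024) (e : (Idx.orb app gens 10 11 r).testBit i = true) :
    ∃ n ∈ h.NA ⊓ h.M, n * h.ψ r * n⁻¹ = h.ψ i := by
  refine (Idx.orb_sound (P := fun i => i < 1024 ∧ ∃ n ∈ h.NA ⊓ h.M, n * h.ψ r * n⁻¹ = h.ψ i) ?_ 10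
    11 ⟨hr, 1, one_mem _, by simp⟩ i e).2
  have key : ∀ {b c M}, actOK b c M = true → ∀ i,
      (i < 1024 ∧ ∃ n ∈ h.NA ⊓ h.M, n * h.ψ r * n⁻¹ = h.ψ i) →
      app M i < 1024 ∧ ∃ n ∈ h.NA ⊓ h.M, n * h.ψ r * n⁻¹ = h.ψ (app M i) := by
    rintro b c M e i ⟨hi, n, hn, e'⟩
    have hn' : h.nu (setOf' b) * h.lam (mc c) ∈ h.NA ⊓ h.M := by
      refine ⟨h.mem_NA.2 fun x hx => ?_, h.nu_lam_mem ?_ (mc c)⟩
      · obtain ⟨j, hj, rfl⟩ := h.exists_ψ hx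
        exact (h.conj_ψ e hj).2 ▸ h.ψ_mem (h.conj_ψ e hj).1
      · simp only [actOK, and'_eq_true, blt_iff, beq_iff] at e
        exact (even_setOf' e.2.1).2 e.2.2.1
    exact ⟨(h.conj_ψ e hi).1, _, mul_mem hn' hn, by rw [← (h.conj_ψ e hi).2, ← e']; group⟩
  intro T hT
  simp only [gens, List.mem_cons, List.not_mem_nil, or_false] at hT
  rcases hT with rfl | rfl | rfl
  exacts [key act1, key act2, key act3]

theorem type_reps : IsConj z (h.ψ 16) ∧ IsConj z (h.ψ 64) ∧ IsConj h.t (h.ψ 2) ∧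
    IsConj h.t (h.ψ 66) := by
  have h1 := h.type_mc (c := qI 64) (m := xorSel aB 64) (by decide +kernel) (by decide +kernel)
  have h2 := h.type_mc (c := qI 66) (m := xorSel aB 66) (by decide +kernel) (by decide +kernel)
  rw [if_pos (by decide +kernel)] at h1
  rw [if_neg (by decide +kernel)] at h2
  exact ⟨h.ψ_z.symm ▸ IsConj.refl z, h1, h.ψ_lt (i := 2) (by norm_num) ▸
    h.isConj_duad (by decide +kernel), h2⟩

open Classical in
theorem exists_rep_A {x : G} (hx : x ∈ h.A) (h1 : x ≠ 1) : ∃ n ∈ h.NA ⊓ h.M, ∃ r,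
    n * h.ψ r * n⁻¹ = x ∧ (if IsConj z x then r = if x ∈ h.V then 16 else 64
      else r = if x ∈ h.V then 2 else 66) ∧ ∀ i < 1024, x = h.ψ i →
        (IsConj z x ↔ zA.testBit i = true) := by
  obtain ⟨i, hi, rfl⟩ := h.exists_ψ hx
  obtain ⟨r, h2, h3⟩ := cover hi fun e => h1 (e ▸ h.ψ_zero)
  have hr : r < 1024 := by split_ifs at h3 <;> omega
  obtain ⟨n, hn, e⟩ := h.orb_conj hr h2
  have c1 : IsConj (h.ψ r) (h.ψ i) := isConj_iff.2 ⟨n, e⟩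
  have c2 : h.ψ i ∈ h.V ↔ r < 64 := by
    rw [← e, ← mem_normalizer_iff.1 hn.2, h.ψ_mem_V hr]
  obtain ⟨t1, t2, t3, t4⟩ := h.type_reps
  have c3 : IsConj z (h.ψ i) ↔ zA.testBit i = true := by
    split_ifs at h3 with h4 <;> rcases h3 with rfl | rfl
    exacts [iff_of_true (t1.trans c1) h4, iff_of_true (t2.trans c1) h4,
      iff_of_false (h.not_z_t (t3.trans c1)) h4, iff_of_false (h.not_z_t (t4.trans c1)) h4]
  refine ⟨n, hn, r, e, ?_, fun j hj e => h.ψ_inj hi hj e ▸ c3⟩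
  simp only [c2, c3]
  split_ifs at h3 ⊢ <;> omega

theorem isConj_ψ {i : ℕ} (hi : i < 1024) : IsConj z (h.ψ i) ↔ zA.testBit i = true := by
  by_cases h0 : i = 0
  · rw [h0, h.ψ_zero]
    exact iff_of_false (fun e => h.z_ne (isConj_one_left.1 e)) (by decide +kernel)
  · obtain ⟨-, -, -, -, -, h1⟩ := h.exists_rep_A (h.ψ_mem hi) fun e => h0 (h.ψ_eq_one hi e)
    exact h1 i hi rfl

theorem conj_NM {x y : G} (hx : x ∈ h.A) (hy : y ∈ h.A) (h1 : x ≠ 1) (h2 : y ≠ 1)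
    (e1 : IsConj z x ↔ IsConj z y) (e2 : x ∈ h.V ↔ y ∈ h.V) :
    ∃ n ∈ h.NA ⊓ h.M, n * x * n⁻¹ = y := by
  obtain ⟨n, hn, r, e, h3, -⟩ := h.exists_rep_A hx h1
  obtain ⟨m, hm, r', e', h4, -⟩ := h.exists_rep_A hy h2
  obtain rfl : r = r' := by
    by_cases c1 : IsConj z y <;> by_cases c2 : y ∈ h.V <;>
      simp only [e1, e2, c1, c2, if_true, if_false] at h3 h4 <;> omega
  exact ⟨m * n⁻¹, mul_mem hm (inv_mem hn), by rw [← e, ← e']; group⟩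

theorem exists_out : ∃ k ∈ h.NA, k * h.ψ 1 * k⁻¹ ∉ h.V ∧ k * h.ψ 2 * k⁻¹ ∉ h.V := by
  obtain ⟨k, r⟩ := h.exists_R_of_isK (A := 0x29524fb3b2537f366fb79d77f76080a9174f)
    (c := 973610668380683592431898193567629920) (by decide +kernel)
  have h1 : ∀ w ∈ wO, w < 4096 := by decide
  have h2 : ∀ w ∈ wO, k * h.s w * k⁻¹ ∈ h.A := fun w hw => by
    obtain ⟨i, -, e⟩ := (by decide +kernel : ∀ w ∈ wO, ∃ i < 64,
      app 0x29524fb3b2537f366fb79d77f76080a9174f w = xorSel wO i) w hw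
    rw [r.act w (h1 w hw), e]
    exact mul_mem (h.s_span_mem wO (fun w hw => ⟨h1 w hw, h.s_wO_mem w hw⟩) i).2
      (pow_mem h.z_mem_A _)
  have h3 : ∀ x ∈ h.A, ∀ y, k * y * k⁻¹ ∈ h.A → k⁻¹ * x * k⁻¹⁻¹ * y * (k⁻¹ * x * k⁻¹⁻¹)⁻¹ = y :=
    fun x hx y hy => by
      calc _ = k⁻¹ * (x * (k * y * k⁻¹) * x⁻¹) * k := by group
        _ = _ := by rw [h.A_comm hx hy]; group
  have h4 : ∀ w < 4096, (∀ i < 64, app 0x29524fb3b2537f366fb79d77f76080a9174f w ≠ xorSel wB i) →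
      k * h.s w * k⁻¹ ∉ h.V := fun w hw e e' => by
    rw [r.act w hw, mul_mem_cancel_right (pow_mem h.z_mem_V _), h.s_mem_V (app_lt _ _)] at e'
    obtain ⟨i, hi, e'⟩ := e'
    exact e i hi e'
  refine ⟨k, inv_inv k ▸ inv_mem (h.mem_NA.2 fun x hx => h.mem_A_of_cent (h3 x hx z (by
    rw [h.mem_H.1 r.memH, mul_inv_cancel_right]; exact h.z_mem_A)) fun w hw => h3 x hx _ (h2 w hw)),
    ?_, ?_⟩ <;> rw [h.ψ_W (by norm_num)] <;> exact h4 _ (by decide) (by decide +kernel)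

theorem conj_NA {x y : G} (hx : x ∈ h.A) (hy : y ∈ h.A) (h1 : x ≠ 1) (h2 : y ≠ 1)
    (e : IsConj z x ↔ IsConj z y) : ∃ n ∈ h.NA, n * x * n⁻¹ = y := by
  obtain ⟨k, hk, k1, k2⟩ := h.exists_out
  have key : ∀ {x y : G}, x ∈ h.A → y ∈ h.A → x ≠ 1 → y ≠ 1 → (IsConj z x ↔ IsConj z y) →
      x ∈ h.V → y ∉ h.V → ∃ n ∈ h.NA, n * x * n⁻¹ = y := fun {x y} hx hy h1 h2 e h3 h4 => by
    obtain ⟨i, hi, i0, i1, i2⟩ : ∃ i < 64, i ≠ 0 ∧ k * h.ψ i * k⁻¹ ∉ h.V ∧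
        (IsConj z x ↔ IsConj z (h.ψ i)) := by
      by_cases hz : IsConj z x
      · exact ⟨1, by norm_num, by norm_num, k1, iff_of_true hz
          ((h.isConj_ψ (by norm_num)).2 (by decide +kernel))⟩
      · exact ⟨2, by norm_num, by norm_num, k2, iff_of_false hz (h.not_z_t h.type_reps.2.2.1)⟩
    have i3 : h.ψ i ≠ 1 := fun e => i0 (h.ψ_eq_one (by omega) e)
    have c1 : IsConj (h.ψ i) (k * h.ψ i * k⁻¹) := isConj_iff.2 ⟨k, rfl⟩
    obtain ⟨n, hn, e1⟩ := h.conj_NM hx (h.ψ_mem (by omega)) h1 i3 i2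
      (iff_of_true h3 ((h.ψ_mem_V (by omega)).2 hi))
    obtain ⟨m, hm, e2⟩ := h.conj_NM (h.mem_NA.1 hk _ (h.ψ_mem (i := i) (by omega))) hy
      (fun e => i3 (conj_eq_one_iff.1 e)) h2 (Iff.trans ⟨fun e => e.trans c1.symm,
        fun e => e.trans c1⟩ (i2.symm.trans e)) (iff_of_false i1 h4)
    exact ⟨m * k * n, mul_mem (mul_mem hm.1 hk) hn.1, by rw [← e2, ← e1]; group⟩
  by_cases h3 : x ∈ h.V <;> by_cases h4 : y ∈ h.V
  · exact (h.conj_NM hx hy h1 h2 e (iff_of_true h3 h4)).imp fun _ hn => ⟨hn.1.1, hn.2⟩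
  · exact key hx hy h1 h2 e h3 h4
  · obtain ⟨n, hn, e'⟩ := key hy hx h2 h1 e.symm h4 h3
    exact ⟨n⁻¹, inv_mem hn, by rw [← e']; group⟩
  · exact (h.conj_NM hx hy h1 h2 e (iff_of_false h3 h4)).imp fun _ hn => ⟨hn.1.1, hn.2⟩

omit [Finite G] in
theorem ncard_A_mask (p : G → Prop) {m : ℕ} (hp : ∀ i < 1024, p (h.ψ i) ↔ m.testBit i = true) :
    {x | x ∈ h.A ∧ p x}.ncard = pop 1024 m := by
  rw [← h.ncard_ψ]
  congr 1
  ext x
  refine ⟨fun hx => ?_, fun ⟨i, hi, h1, e⟩ => e ▸ ⟨h.ψ_mem hi, (hp i hi).2 h1⟩⟩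
  obtain ⟨i, hi, rfl⟩ := h.exists_ψ hx.1
  exact ⟨i, hi, (hp i hi).1 hx.2, rfl⟩

theorem orbit_z : {v : G | ∃ n ∈ h.NA, n * z * n⁻¹ = v}.ncard = 155 := by
  rw [← pop_zA, ← h.ncard_A_mask (IsConj z) fun _ => h.isConj_ψ]
  congr 1
  ext v
  exact ⟨fun ⟨n, hn, e⟩ => ⟨e ▸ h.mem_NA.1 hn z h.z_mem_A, isConj_iff.2 ⟨n, e⟩⟩,
    fun hv => h.conj_NA h.z_mem_A hv.1 h.z_ne (fun e => h.z_ne (isConj_one_left.1 (e ▸ hv.2)))
      (iff_of_true (IsConj.refl z) hv.2)⟩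

theorem ψ_t {i : ℕ} (hi : i < 1024) :
    h.ψ i ≠ 1 ∧ ¬ IsConj z (h.ψ i) ↔ i ≠ 0 ∧ ¬ zA.testBit i = true :=
  and_congr (not_congr ⟨h.ψ_eq_one hi, fun e => e ▸ h.ψ_zero⟩) (not_congr (h.isConj_ψ hi))

theorem ψ_two : h.ψ 2 ≠ 1 ∧ ¬ IsConj z (h.ψ 2) := (h.ψ_t (by norm_num)).2 (by decide +kernel)

theorem orbit_t : {v : G | ∃ n ∈ h.NA, n * h.ψ 2 * n⁻¹ = v}.ncard = 868 := by
  have : ∀ i < 1024, i ≠ 0 ∧ ¬ zA.testBit i = true ↔ (0xf66fffffffff6ff6dffbbffdeff77ffefff66fff6ffffff6fddffbbf7ff7effefdefeffdfedfdffef7f7bfbfdfdffefeff7b7bffdeffffdededeffffffffdedefcf3fffffffff3fcdf7fefbff7fdfbfef7fefbfdfbfdf7feffcf3ffff3fffffcffffffffcffccffcfffffffff6f6f6f6ffffffff7bde7bded4422bbd42d442d4).testBit i = true := by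
    decide +kernel
  rw [← show pop 1024 0xf66fffffffff6ff6dffbbffdeff77ffefff66fff6ffffff6fddffbbf7ff7effefdefeffdfedfdffef7f7bfbfdfdffefeff7b7bffdeffffdededeffffffffdedefcf3fffffffff3fcdf7fefbff7fdfbfef7fefbfdfbfdf7feffcf3ffff3fffffcffffffffcffccffcfffffffff6f6f6f6ffffffff7bde7bded4422bbd42d442d4 = 868 by decide +kernel, ← h.ncard_A_mask
    (fun v => v ≠ 1 ∧ ¬ IsConj z v) fun i hi => (h.ψ_t hi).trans (this i hi)]
  congr 1
  ext v
  refine ⟨?_, fun hv => h.conj_NA (h.ψ_mem (by norm_num)) hv.1 h.ψ_two.1 hv.2.1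
    (iff_of_false h.ψ_two.2 hv.2.2)⟩
  rintro ⟨n, hn, rfl⟩
  exact ⟨h.mem_NA.1 hn _ (h.ψ_mem (by norm_num)), fun e => h.ψ_two.1 (conj_eq_one_iff.1 e),
    fun e => h.ψ_two.2 (e.trans (isConj_iff.2 ⟨n, rfl⟩).symm)⟩

theorem orbit_t_M : {v : G | ∃ n ∈ h.NA ⊓ h.M, n * h.ψ 2 * n⁻¹ = v}.ncard = 28 := by
  have : ∀ i < 1024, (i ≠ 0 ∧ ¬ zA.testBit i = true) ∧ i < 64 ↔
      (0xd4422bbd42d442d4).testBit i = true := by decide +kernel
  rw [← show pop 1024 0xd4422bbd42d442d4 = 28 by decide +kernel, ← h.ncard_A_mask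
    (fun v => (v ≠ 1 ∧ ¬ IsConj z v) ∧ v ∈ h.V) fun i hi =>
      (and_congr (h.ψ_t hi) (h.ψ_mem_V hi)).trans (this i hi)]
  congr 1
  ext v
  have h2 := (h.ψ_mem_V (i := 2) (by norm_num)).2 (by norm_num)
  refine ⟨?_, fun hv => h.conj_NM (h.ψ_mem (by norm_num)) hv.1 h.ψ_two.1 hv.2.1.1
    (iff_of_false h.ψ_two.2 hv.2.1.2) (iff_of_true h2 hv.2.2)⟩
  rintro ⟨n, hn, rfl⟩
  exact ⟨h.mem_NA.1 hn.1 _ (h.ψ_mem (by norm_num)), ⟨fun e => h.ψ_two.1 (conj_eq_one_iff.1 e),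
    fun e => h.ψ_two.2 (e.trans (isConj_iff.2 ⟨n, rfl⟩).symm)⟩, h.toHM.mem_M.1 hn.2 _ h2⟩

theorem card_NA : Nat.card h.NA = 31 * Nat.card ↥(h.NA ⊓ h.M) := by
  have h1 := card_orbit_mul h.NA (h.ψ 2)
  have h2 := card_orbit_mul (h.NA ⊓ h.M) (h.ψ 2)
  have h3 : centralizer {h.ψ 2} ≤ h.M := by
    rw [h.ψ_lt (by norm_num)]
    exact h.cent_duad_le (by decide +kernel)
  rw [h.orbit_t_M, inf_assoc, inf_eq_right.2 h3] at h2
  rw [h.orbit_t] at h1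
  omega

end MM

end Cfsg.Agent.J4
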