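import Cfsg.Agent.J4.Ten3
import Cfsg.Agent.Solv.Gaschutz
import Cfsg.Agent.Class.LinearBasic

/-! The normaliser of the elementary abelian group of order `2 ^ 10` is `2 ^ 10 : L₅(2)`. -/

set_option autoImplicit false

namespace Cfsg.Agent.J4

open Cfsg Cfsg.Agent.Comp Cfsg.Agent.Spor Cfsg.Agent.Spor.M24C Subgroup VA TN Matrix
open scoped Pointwise

variable {G : Type*} [Group G] {z : G} {P : Subgroup G}

theorem exists_SL_of_act {L : Type*} [Group L] {n : ℕ}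
    (f : L → (Fin n → ZMod 2) → Fin n → ZMod 2) (h1 : ∀ a, f 1 a = a)
    (h2 : ∀ l l' a, f (l * l') a = f l (f l' a)) (h3 : ∀ l a b, f l (a + b) = f l a + f l b) :
    ∃ α : L →* SpecialLinearGroup (Fin n) (ZMod 2), ∀ l a, (α l).1 *ᵥ a = f l a := by
  let F : L → (Fin n → ZMod 2) →ₗ[ZMod 2] (Fin n → ZMod 2) := fun l =>
    AddMonoidHom.toZModLinearMap 2 (AddMonoidHom.mk' (f l) (h3 l))
  let m : L →* Matrix (Fin n) (Fin n) (ZMod 2) :=
    { toFun := fun l => LinearMap.toMatrix' (F l)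
      map_one' := by rw [show F 1 = LinearMap.id from LinearMap.ext h1, LinearMap.toMatrix'_id]
      map_mul' := fun l l' => by
        rw [← LinearMap.toMatrix'_comp]
        exact congrArg _ (LinearMap.ext (h2 l l')) }
  have hd : ∀ l, (m l).det = 1 := fun l => by
    have : (m l).det * (m l⁻¹).det = 1 := by
      rw [← det_mul, ← map_mul, mul_inv_cancel, map_one, det_one]
    revert this
    generalize (m l).det = a
    generalize (m l⁻¹).det = b
    revert a b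
    decide
  exact ⟨⟨⟨fun l => ⟨m l, hd l⟩, Subtype.ext m.map_one⟩, fun l l' => Subtype.ext (m.map_mul l l')⟩,
    fun l a => LinearMap.toMatrix'_mulVec (F l) a⟩

theorem card_SL52 : Nat.card (SpecialLinearGroup (Fin 5) (ZMod 2)) = 9999360 := by
  have h := Class.card_units_mul_card_SL (ι := Fin 5) (R := ZMod 2)
  rw [Matrix.card_GL_field, Nat.card_units, Nat.card_eq_fintype_card (α := ZMod 2), ZMod.card] at h
  generalize Nat.card (SpecialLinearGroup (Fin 5) (ZMod 2)) = b at h ⊢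
  exact (one_mul b).symm.trans (h.trans (by decide))

namespace TN

/-- Binary encoding of vectors. -/
def en (a : Fin 5 → ZMod 2) : ℕ :=
  (a 0).val + 2 * (a 1).val + 4 * (a 2).val + 8 * (a 3).val + 16 * (a 4).val
/-- Binary decoding. -/
def de (p : ℕ) : Fin 5 → ZMod 2 := fun i => if p.testBit i then 1 else 0

theorem en_lt : ∀ a, en a < 32 := by decide +kernel
theorem en_de : ∀ p < 32, en (de p) = p := by decide +kernel
theorem de_en : ∀ a, de (en a) = a := by decide +kernel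
theorem de_xor : ∀ p < 32, ∀ q < 32, de (p ^^^ q) = de p + de q := by decide +kernel
theorem xor_lt5 {p q : ℕ} (hp : p < 32) (hq : q < 32) : p ^^^ q < 32 :=
  Nat.xor_lt_two_pow (n := 5) hp hq
theorem en_add (a b : Fin 5 → ZMod 2) : en (a + b) = en a ^^^ en b := by
  rw [← en_de _ (xor_lt5 (en_lt a) (en_lt b)), de_xor _ (en_lt a) _ (en_lt b), de_en, de_en]

theorem exists_two {p : ℕ} (hp : p < 32) (h0 : p ≠ 0) : ∃ q < 32, ∃ r < 32, wd p q ≠ 0 ∧
    wd p r ≠ 0 ∧ wd p q ^^^ wd p r ≠ 0 := by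
  obtain ⟨q, hq, r, hr, h1, h2, h3⟩ := (by decide +kernel : ∀ p < 32, ∃ q < 32, ∃ r < 32,
    (q ≠ 0 ∧ p ≠ q) ∧ (r ≠ 0 ∧ p ≠ r) ∧ q ^^^ r ≠ 0 ∧ p ≠ q ^^^ r) p hp
  rw [← not_or] at h1 h2 h3
  exact ⟨q, hq, r, hr, fun e => h1 (((wd_spec hp hq).2.2.2.1 e).resolve_left h0),
    fun e => h2 (((wd_spec hp hr).2.2.2.1 e).resolve_left h0), fun e => h3
      (((wd_spec hp (xor_lt5 hq hr)).2.2.2.1 (by rwa [wd_xor hp hq hr])).resolve_left h0)⟩

theorem sm_xor {p a b : ℕ} (hp : p < 32) (ha : (sm p).testBit a = true)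
    (hb : (sm p).testBit b = true) : (sm p).testBit (a ^^^ b) = true := by
  obtain ⟨q, hq, rfl⟩ := mem_sm.1 ha
  obtain ⟨r, hr, rfl⟩ := mem_sm.1 hb
  exact mem_sm.2 ⟨_, xor_lt5 hq hr, wd_xor hp hq hr⟩

theorem sm_lt {p a : ℕ} (ha : (sm p).testBit a = true) : a < 1024 := by
  obtain ⟨q, -, rfl⟩ := mem_sm.1 ha
  exact wd_lt p q

theorem sm_wd (p : ℕ) {q : ℕ} (hq : q < 32) : (sm p).testBit (wd p q) = true :=
  mem_sm.2 ⟨q, hq, rfl⟩

theorem sm_zero {p : ℕ} (hp : p < 32) : (sm p).testBit 0 = true :=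
  mem_sm.2 ⟨0, by norm_num, (wd_spec hp (by norm_num)).2.2.2.2 (by simp)⟩

theorem sm_zA {p a : ℕ} (hp : p < 32) (ha : (sm p).testBit a = true) (h0 : a ≠ 0) :
    zA.testBit a = true := by
  obtain ⟨q, hq, rfl⟩ := mem_sm.1 ha
  exact (wd_spec hp hq).2.2.1.resolve_left h0

theorem eq_zero_of_sm {a : ℕ} (ha : (sm 0).testBit a = true) : a = 0 := by
  obtain ⟨q, hq, rfl⟩ := mem_sm.1 ha
  exact (wd_spec (by norm_num) hq).2.2.2.2 (Or.inl rfl)

theorem exists_star {σ : ℕ → ℕ} (h1 : ∀ i < 1024, σ i < 1024)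
    (h2 : ∀ i < 1024, ∀ j < 1024, σ (i ^^^ j) = σ i ^^^ σ j)
    (h3 : ∀ i < 1024, zA.testBit i = true → zA.testBit (σ i) = true)
    (h4 : ∀ i < 1024, σ i = 0 ↔ i = 0) {p : ℕ} (hp : p < 32) (h0 : p ≠ 0) :
    ∃ p' < 32, p' ≠ 0 ∧ ∀ c, (sm p).testBit c = true → (sm p').testBit (σ c) = true := by
  obtain ⟨q, hq, r, hr, a0, b0, c0⟩ := exists_two hp h0
  have a1 := sm_wd p hq
  have b1 := sm_wd p hr
  generalize wd p q = a at *
  generalize wd p r = b at *
  have k : ∀ {c}, (sm p).testBit c = true → c ≠ 0 → zA.testBit (σ c) = true := fun hc e =>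
    h3 _ (sm_lt hc) (sm_zA hp hc e)
  obtain ⟨p', hp', a2, b2, s, hs, H⟩ := star (h1 a (sm_lt a1)) (h1 b (sm_lt b1)) (k a1 a0) (k b1 b0)
    (h2 a (sm_lt a1) b (sm_lt b1) ▸ k (sm_xor hp a1 b1) c0)
  refine ⟨p', hp', fun e => a0 ((h4 a (sm_lt a1)).1 (eq_zero_of_sm (e ▸ a2))), fun c hc => ?_⟩
  by_contra hn
  have H' : ∀ d, (sm p).testBit d = true → ¬ (sm p').testBit (σ d) = true → σ d ∈ s :=
    fun d hd e => (H _ (h1 d (sm_lt hd)) (k hd fun e' => e (by
      rw [(h4 d (sm_lt hd)).2 e']; exact sm_zero hp')) (h2 a (sm_lt a1) d (sm_lt hd) ▸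
      k (sm_xor hp a1 hd) fun e' => e (xor_eq_zero e' ▸ a2)) (h2 b (sm_lt b1) d (sm_lt hd) ▸
      k (sm_xor hp b1 hd) fun e' => e (xor_eq_zero e' ▸ b2))).resolve_left e
  have h5 := pop_sm hp h0
  rw [pop_eq] at h5
  have h6 := Finset.card_le_card_of_injOn (t := s ∪ s.image (· ^^^ σ c)) σ (s := (Finset.range
    1024).filter fun i => (sm p).testBit i = true) (fun d hd => by
      have hd := (Finset.mem_filter.1 hd).2
      rw [Finset.coe_union, Finset.coe_image]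
      by_cases e : (sm p').testBit (σ d) = true
      · refine Or.inr ⟨_, H' _ (sm_xor hp hd hc) fun e' => hn ?_, ?_⟩
        · have := sm_xor hp' e e'
          rwa [h2 d (sm_lt hd) c (sm_lt hc), Nat.xor_xor_cancel_left] at this
        · rw [h2 d (sm_lt hd) c (sm_lt hc)]
          exact Nat.xor_xor_cancel_right _ _
      · exact Or.inl (H' d hd e)) fun d hd e he e' => by
      have hd := sm_lt (Finset.mem_filter.1 hd).2
      have he := sm_lt (Finset.mem_filter.1 he).2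
      exact xor_eq_zero ((h4 _ (xor_lt10 hd he)).1 (by rw [h2 d hd e he, e', Nat.xor_self]))
  have := Finset.card_union_le s (s.image (· ^^^ σ c))
  have := Finset.card_image_le (s := s) (f := (· ^^^ σ c))
  omega

end TN

namespace MM

variable (h : MM z P)

/-- Conjugation by `n` maps the star of `p` into the star of `p'`. -/
def RS (n : G) (p p' : ℕ) : Prop := (p = 0 ↔ p' = 0) ∧ ∀ c, (sm p).testBit c = true →
  ∃ c', (sm p').testBit c' = true ∧ n * h.ψ c * n⁻¹ = h.ψ c'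

theorem RS_of_mem {n : G} (hn : n ∈ h.A) (p : ℕ) : h.RS n p p :=
  ⟨Iff.rfl, fun c hc => ⟨c, hc, h.A_comm hn (h.ψ_mem (sm_lt hc))⟩⟩

theorem RS.mul {m n : G} {p q r : ℕ} (h1 : h.RS n p q) (h2 : h.RS m q r) : h.RS (m * n) p r :=
  ⟨h1.1.trans h2.1, fun c hc => by
    obtain ⟨c', h3, e⟩ := h1.2 c hc
    obtain ⟨c'', h4, e'⟩ := h2.2 c' h3
    exact ⟨c'', h4, by rw [← e', ← e]; group⟩⟩

theorem conj_ne {n : G} {c c' : ℕ} (hc : c < 1024) (h0 : c ≠ 0) (e : n * h.ψ c * n⁻¹ = h.ψ c') :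
    c' ≠ 0 := fun e' => h0 (h.ψ_eq_one hc (conj_eq_one_iff.1 (by rw [e, e', h.ψ_zero])))

theorem RS.wd {n : G} {p q p' q' c : ℕ} (hp : p' < 32) (hq : q' < 32) (h1 : h.RS n p p')
    (h2 : h.RS n q q') (hne : p' ≠ q') (c1 : (sm p).testBit c = true)
    (c2 : (sm q).testBit c = true) (h0 : c ≠ 0) : n * h.ψ c * n⁻¹ = h.ψ (wd p' q') := by
  obtain ⟨a, a1, e⟩ := h1.2 c c1
  obtain ⟨b, b1, e'⟩ := h2.2 c c2
  obtain rfl := h.ψ_inj (sm_lt a1) (sm_lt b1) (e.symm.trans e')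
  rw [e, (sm_inter hp hq hne a1 b1).resolve_left (h.conj_ne (sm_lt c1) h0 e)]

theorem RS.uniq {n : G} {p q r : ℕ} (hp : p < 32) (hq : q < 32) (hr : r < 32) (h1 : h.RS n p q)
    (h2 : h.RS n p r) : q = r := by
  by_cases h0 : p = 0
  · rw [h1.1.1 h0, h2.1.1 h0]
  by_contra hne
  obtain ⟨a, ha, b, hb, a0, b0, c0⟩ := exists_two hp h0
  have := (h1.wd h hq hr h2 hne (sm_wd p ha) (sm_wd p ha) a0).trans
    (h1.wd h hq hr h2 hne (sm_wd p hb) (sm_wd p hb) b0).symm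
  rw [h.ψ_inj (wd_lt _ _) (wd_lt _ _) ((MulAut.conj n).injective this), Nat.xor_self] at c0
  exact c0 rfl

variable [Finite G]

theorem exists_RS {n : G} (hn : n ∈ h.NA) {p : ℕ} (hp : p < 32) : ∃ p' < 32, h.RS n p p' := by
  by_cases h0 : p = 0
  · exact ⟨p, hp, Iff.rfl, fun c hc => ⟨c, hc, by
      rw [eq_zero_of_sm (a := c) (h0 ▸ hc), h.ψ_zero]; simp⟩⟩
  choose! σ h1 h2 using fun i (hi : i < 1024) => h.exists_ψ (h.mem_NA.1 hn _ (h.ψ_mem hi))
  obtain ⟨p', h3, h4, h5⟩ := exists_star h1 (fun i hi j hj => h.ψ_inj (h1 _ (xor_lt10 hi hj))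
    (xor_lt10 (h1 i hi) (h1 j hj)) (by
      rw [← h2 _ (xor_lt10 hi hj), ← h.ψ_mul (h1 i hi) (h1 j hj), ← h2 i hi, ← h2 j hj,
        ← h.ψ_mul hi hj]
      group)) (fun i hi e => (h.isConj_ψ (h1 i hi)).1 (((h.isConj_ψ hi).2 e).trans
        (isConj_iff.2 ⟨n, h2 i hi⟩))) (fun i hi => ⟨fun e => not_not.1 fun e' =>
        h.conj_ne hi e' (h2 i hi) e, fun e => h.ψ_eq_one (h1 i hi) (by
          rw [← h2 i hi, e, h.ψ_zero]; simp)⟩) hp h0
  exact ⟨p', h3, iff_of_false h0 h4, fun c hc => ⟨_, h5 c hc, h2 c (sm_lt hc)⟩⟩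

theorem RS.inj {n : G} (hn : n ∈ h.NA) {p q r : ℕ} (hp : p < 32) (hq : q < 32) (hr : r < 32)
    (h1 : h.RS n p r) (h2 : h.RS n q r) : p = q := by
  obtain ⟨s, hs, h3⟩ := h.exists_RS (inv_mem hn) hr
  have h4 := h1.mul h h3
  have h5 := h2.mul h h3
  rw [inv_mul_cancel] at h4 h5
  rw [(h.RS_of_mem (one_mem _) p).uniq h hp hp hs h4, (h.RS_of_mem (one_mem _) q).uniq h hq hq hs h5]

theorem RS.xor {n : G} (hn : n ∈ h.NA) {p q p' q' : ℕ} (hp : p < 32) (hq : q < 32) (hp' : p' < 32)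
    (hq' : q' < 32) (h1 : h.RS n p p') (h2 : h.RS n q q') : h.RS n (p ^^^ q) (p' ^^^ q') := by
  obtain ⟨r, hr, h3⟩ := h.exists_RS hn (xor_lt5 hp hq)
  by_cases h0 : TN.wd p q = 0
  · rcases (wd_spec hp hq).2.2.2.1 h0 with e | e | e
    · rwa [e, h1.1.1 e, Nat.zero_xor, Nat.zero_xor]
    · rwa [e, h2.1.1 e, Nat.xor_zero, Nat.xor_zero]
    · subst e
      rwa [h1.uniq h hp hp' hq' h2, Nat.xor_self q', ← h3.1.1 (Nat.xor_self p)]
  have h4 := mt (wd_spec hp hq).2.2.2.2 h0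
  push Not at h4
  have c2 : (sm q).testBit (TN.wd p q) = true := (wd_spec hp hq).1 ▸ sm_wd q hp
  have h5 := h1.wd h hp' hq' h2 (fun e => h4.2.2 (h1.inj h hn hp hq hp' (e ▸ h2))) (sm_wd p hq) c2 h0
  obtain ⟨c, h6, e⟩ := h3.2 _ ((wd_spec hp hq).2.1 ▸ sm_wd _ hq)
  obtain rfl := h.ψ_inj (wd_lt _ _) (sm_lt h6) (h5.symm.trans e)
  rcases sm_three hp' hq' hr (h.conj_ne (wd_lt _ _) h0 h5) h6 with rfl | rfl | rfl
  · exact absurd (by simpa using h3.inj h hn (xor_lt5 hp hq) hp hr h1) h4.2.1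
  · exact absurd (by simpa using h3.inj h hn (xor_lt5 hp hq) hq hr h2) h4.1
  · exact h3

omit [Finite G] in
theorem ψ_mem_of_zA {W : Subgroup G} (hW : ∀ i < 1024, zA.testBit i = true → h.ψ i ∈ W) :
    h.A ≤ W := fun x hx => by
  obtain ⟨i, hi, rfl⟩ := h.exists_ψ hx
  obtain ⟨j, hj, h1, h2⟩ := zA_gen hi
  rw [← Nat.xor_xor_cancel_right i j, ← h.ψ_mul (xor_lt10 hi hj) hj]
  exact mul_mem (hW _ (xor_lt10 hi hj) h2) (hW j hj h1)

theorem exists_hom_NA : ∃ α : h.NA →* SpecialLinearGroup (Fin 5) (ZMod 2),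
    α.ker = h.A.subgroupOf h.NA := by
  choose! τ h1 h2 using fun (n : h.NA) p (hp : p < 32) => h.exists_RS n.2 hp
  have h3 : ∀ n : h.NA, (n : G) ∈ h.A → ∀ a, de (τ n (en a)) = a := fun n hn a => by
    rw [← (h.RS_of_mem hn _).uniq h (en_lt a) (en_lt a) (h1 _ _ (en_lt a)) (h2 n _ (en_lt a)), de_en]
  obtain ⟨α, hα⟩ := exists_SL_of_act (fun (n : h.NA) a => de (τ n (en a))) (h3 1 (one_mem _))
    (fun l l' a => by
      have := h1 l' _ (en_lt a)
      rw [en_de _ this, (h2 (l * l') _ (en_lt a)).uniq h (en_lt a) (h1 _ _ (en_lt a)) (h1 _ _ this)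
        ((h2 l' _ (en_lt a)).mul h (h2 l _ this))])
    fun l a b => by
      have ha := h1 l _ (en_lt a)
      have hb := h1 l _ (en_lt b)
      rw [← de_xor _ ha _ hb, (h2 l _ (en_lt (a + b))).uniq h (en_lt _) (h1 _ _ (en_lt _))
        (xor_lt5 ha hb) (en_add a b ▸ (h2 l _ (en_lt a)).xor h l.2 (en_lt a) (en_lt b) ha hb
          (h2 l _ (en_lt b)))]
  refine ⟨α, le_antisymm (fun n hn => ?_) fun n hn => Subtype.ext (Matrix.ext_of_mulVec_single
    fun i => (hα n _).trans ((h3 n hn _).trans (one_mulVec _).symm))⟩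
  have h4 : ∀ p < 32, h.RS n p p := fun p hp => by
    have := hα n (de p)
    rw [show (α n).1 = 1 from congrArg Subtype.val hn, en_de p hp, one_mulVec] at this
    have := congrArg en this
    rw [en_de p hp, en_de _ (h1 n p hp)] at this
    exact (congrArg (h.RS n p) this).mpr (h2 n p hp)
  rw [mem_subgroupOf, ← h.cent_A]
  refine fun x hx => mem_centralizer_singleton_iff.1 (h.ψ_mem_of_zA (fun i hi e => ?_) hx)
  obtain ⟨p, hp, q, hq, rfl⟩ := exists_wd hi e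
  have h0 : TN.wd p q ≠ 0 := fun e' => absurd (e' ▸ e) (by decide +kernel)
  exact mem_centralizer_singleton_iff.2 (mul_inv_eq_iff_eq_mul.1 ((h4 p hp).wd h hp hq (h4 q hq)
    (fun e => h0 ((wd_spec hp hq).2.2.2.2 (by simp [e]))) (sm_wd p hq)
    ((wd_spec hp hq).1 ▸ sm_wd q hp) h0)).symm

theorem lam_mem_NA {g : M24} (hg : g • setOf' 5279 = setOf' 5279) : h.lam g ∈ h.NA :=
  h.mem_NA.2 <| by
    rintro _ ⟨a, k, ha, a1, hk, rfl⟩
    refine ⟨g • a, g * k * g⁻¹, even_smul g ha, hg ▸ Finset.smul_finset_subset_smul_finset a1,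
      by rw [← hg, mem_fixS_smul]; simpa [mul_assoc] using hk, ?_⟩
    rw [← h.lam_conj _ _ ha, map_mul, map_mul, map_inv]
    group

theorem even_pair (x y : GolayPt) : Even (symmDiff {x} {y} : Finset GolayPt).card := by
  revert x y
  decide +kernel

theorem nu_mem_NA {x y : GolayPt} (hx : x ∉ setOf' 5279) (hy : y ∉ setOf' 5279) :
    h.nu (symmDiff {x} {y}) ∈ h.NA := h.mem_NA.2 <| by
  rintro _ ⟨a, k, ha, a1, hk, rfl⟩
  have hb := even_pair x y
  obtain ⟨i, hi, e⟩ := h.nu_mem_A (even_symmDiff hb (even_smul k hb)) (vo_duad hx hy hk)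
  rw [h.nu_mul _ _ hb (even_smul k hb), ← h.lam_conj _ _ hb] at e
  have := mul_mem (mul_mem (show h.nu a * h.lam 1 ∈ h.A from ⟨a, 1, ha, a1, one_mem _, rfl⟩)
    (e ▸ h.ψ_mem (i := i) (by omega))) (h.lam_mem_A hk)
  rw [h.nu_inv hb]
  rwa [map_one, mul_one, mul_assoc, mul_assoc, inv_mul_cancel_right, ← mul_assoc, h.nu_comm ha hb,
    ← mul_assoc, mul_assoc _ (h.nu a)] at this

theorem exists_B0 : ∃ B : Subgroup G, B ≤ h.NA ⊓ h.M ∧ B ⊓ h.A = ⊥ ∧ Nat.card B = 322560 := by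
  have hv : Even (setOf' 33).card := by decide +kernel
  have key : ∀ g, (MulAut.conj (h.nu (setOf' 33))).toMonoidHom (h.lam g) =
      h.nu (symmDiff (setOf' 33) (g • setOf' 33)) * h.lam g := fun g => by
    rw [h.nu_mul _ _ hv (even_smul g hv), ← h.lam_conj _ _ hv, mul_assoc, inv_mul_cancel_right,
      ← mul_assoc]
    exact congrArg _ (h.nu_inv hv)
  refine ⟨((MulAction.stabilizer M24 (setOf' 5279)).map h.lam).map
    (MulAut.conj (h.nu (setOf' 33))).toMonoidHom, ?_, eq_bot_iff.2 ?_, by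
      rw [card_map_conj, card_map_of_injective h.lam_injective, card_stabilizer_octad o0_mem]⟩
  · rintro _ ⟨_, ⟨g, hg, rfl⟩, rfl⟩
    rw [key]
    refine ⟨mul_mem ?_ (h.lam_mem_NA hg), h.nu_lam_mem (even_symmDiff hv (even_smul g hv)) g⟩
    have h1 : ∀ x, g • x ∈ setOf' 5279 ↔ x ∈ setOf' 5279 := fun x => by
      rw [← Finset.smul_mem_smul_finset_iff g (b := x), show g • setOf' 5279 = setOf' 5279 from hg]
    rw [show setOf' 33 = symmDiff {some 0} {some 5} by decide +kernel, Finset.smul_finset_symmDiff,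
      Finset.smul_finset_singleton, Finset.smul_finset_singleton, symmDiff_symmDiff_symmDiff_comm,
      h.nu_mul _ _ (even_pair _ _) (even_pair _ _)]
    refine mul_mem (le_normalizer (H := h.A) ⟨_, 1, even_pair _ _, symmDiff_le_sup.trans
      (Finset.union_subset ?_ ?_), one_mem _, by rw [map_one, mul_one]⟩)
      (h.nu_mem_NA (by decide +kernel) ((h1 _).not.2 (by decide +kernel)))
    · decide +kernel
    · exact Finset.singleton_subset_iff.2 ((h1 _).2 (by decide +kernel))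
  · rintro _ ⟨⟨_, ⟨g, -, rfl⟩, rfl⟩, hA⟩
    obtain ⟨j, hj, e⟩ := h.exists_ψ hA
    rw [e, (?_ : j = 0), h.ψ_zero]
    · exact one_mem _
    rw [key, ψ] at e
    obtain ⟨rfl, h1⟩ := h.nu_lam_inj (even_symmDiff hv (even_smul g hv)) (even_aM hj) e
    rw [h.nu_eq_iff (even_symmDiff hv (even_smul _ hv)) (even_aM hj)] at h1
    have hl := imgC_lt (mc (qI j) : Equiv.Perm GolayPt) 33
    rw [code_mc (okM_qI hj)] at hl
    rw [mc_smul_setOf' (okM_qI hj), ← setOf'_xor, ← setOf'_xor, setOf'_mem_codeSets_iff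
      (Nat.xor_lt_two_pow (Nat.xor_lt_two_pow (by norm_num) hl) (aM_spec hj).1)] at h1
    have := (allB_iff 1024 (fun j => or' (Nat.beq j 0) (not' (isCW (Nat.xor (Nat.xor 33
      (force (qI j) fun c => imgC c 33)) (xorSel aB j)))))).1 (by decide +kernel) j hj
    simp only [or'_eq_true, not'_eq_true, beq_iff, force_eq] at this
    exact this.resolve_right (not_not.2 h1)

theorem exists_compl_A : ∃ B : Subgroup G, B ≤ h.NA ∧ B ⊓ h.A = ⊥ ∧ B ⊔ h.A = h.NA ∧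
    Nonempty (B ≃* SpecialLinearGroup (Fin 5) (ZMod 2)) := by
  obtain ⟨α, hα⟩ := h.exists_hom_NA
  obtain ⟨B, h1, h2, h3⟩ := h.exists_B0
  have hA : h.A ≤ h.NA := le_normalizer
  have hB : B ≤ h.NA := h1.trans inf_le_left
  have c1 := Grp.card_sup_mul_card_inf_of_le_normalizer hB
  rw [h2, card_bot, h3, h.card_A] at c1
  have c2 := card_le_of_le (sup_le h1 (le_inf hA h.A_le_M))
  have c3 := h.card_NA
  have c4 := α.ker.card_mul_index
  have c5 : Nat.card α.ker = 2 ^ 10 := by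
    rw [hα, Nat.card_congr (subgroupOfEquivOfLe hA).toEquiv, h.card_A]
  have c6 := card_le_card_group α.range
  rw [index_ker, c5] at c4
  rw [card_SL52] at c6
  have c7 := ((B ⊔ h.A).subgroupOf h.NA).card_mul_index
  rw [Nat.card_congr (subgroupOfEquivOfLe (sup_le hB hA)).toEquiv,
    show Nat.card ↥(B ⊔ h.A) = 322560 * 2 ^ 10 by omega] at c7
  have : IsMulCommutative α.ker := ⟨⟨fun a b => Subtype.ext (Subtype.ext
    (mul_inv_eq_iff_eq_mul.1 (h.A_comm (hα.le a.2) (hα.le b.2))))⟩⟩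
  obtain ⟨H, hH⟩ := Solv.gaschutz_exists α.ker ((B ⊔ h.A).subgroupOf h.NA)
    (hα.le.trans (subgroupOf_mono _ le_sup_right))
    (by rw [c5, show ((B ⊔ h.A).subgroupOf h.NA).index = 31 by omega]; norm_num)
    (B.subgroupOf h.NA) (by rw [hα, ← bot_subgroupOf, ← h2]; rfl)
    (by rw [hα, subgroupOf_sup hB hA, sup_comm])
  have c8 := hH.card_mul_card
  rw [c5] at c8
  refine ⟨H.map h.NA.subtype, map_subtype_le H, ?_, ?_, ⟨(H.equivMapOfInjective _
    h.NA.subtype_injective).symm.trans (MulEquiv.ofBijective (α.domRestrict H)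
      ((Nat.bijective_iff_injective_and_card _).2 ⟨?_, by rw [card_SL52]; omega⟩))⟩⟩
  · rw [← map_subgroupOf_eq_of_le hA, ← hα, ← map_inf _ _ _ h.NA.subtype_injective,
      hH.disjoint.symm.eq_bot, Subgroup.map_bot]
  · rw [← map_subgroupOf_eq_of_le hA, ← hα, ← Subgroup.map_sup, hH.symm.sup_eq_top,
      ← MonoidHom.range_eq_map, range_subtype]
  · rw [← MonoidHom.ker_eq_bot_iff, MonoidHom.ker_domRestrict, subgroupOf_eq_bot]
    exact hH.disjoint

theorem irred_A {W : Subgroup G} (h1 : W ≤ h.A) (h2 : h.NA ≤ normalizer (W : Set G)) :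
    W = ⊥ ∨ W = h.A := by
  refine or_iff_not_imp_left.2 fun h0 => ?_
  obtain ⟨⟨x, hx⟩, x1⟩ := ne_bot_iff_exists_ne_one.1 h0
  have key : ∀ {x}, x ∈ W → x ≠ 1 → ∀ i < 1024, i ≠ 0 → (IsConj z x ↔ zA.testBit i = true) →
      h.ψ i ∈ W := fun {x} hx x1 i hi i0 e => by
    obtain ⟨n, hn, e⟩ := h.conj_NA (h1 hx) (h.ψ_mem hi) x1 (fun e => i0 (h.ψ_eq_one hi e))
      (e.trans (h.isConj_ψ hi).symm)
    exact e ▸ (mem_normalizer_iff.1 (h2 hn) x).1 hx
  have x1 : x ≠ 1 := fun e => x1 (Subtype.ext e)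
  have hz : z ∈ W := by
    rw [← h.ψ_z]
    by_cases hz : IsConj z x
    · exact key hx x1 16 (by norm_num) (by norm_num) (iff_of_true hz (by decide +kernel))
    · obtain ⟨i, hi, i0, i1, i2, i3⟩ : ∃ i < 64, i ≠ 0 ∧ i ^^^ 16 ≠ 0 ∧ ¬ zA.testBit i = true ∧
        ¬ zA.testBit (i ^^^ 16) = true := by decide +kernel
      have := xor_lt10 (i := i) (j := 16) (by omega) (by norm_num)
      rw [← Nat.xor_xor_cancel_left i 16, ← h.ψ_mul (by omega) this]
      exact mul_mem (key hx x1 i (by omega) i0 (iff_of_false hz i2))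
        (key hx x1 _ this i1 (iff_of_false hz i3))
  exact le_antisymm h1 (h.ψ_mem_of_zA fun i hi e => key hz h.z_ne i hi
    (fun e' => absurd (e' ▸ e) (by decide +kernel)) (iff_of_true (IsConj.refl z) e))

end MM

end Cfsg.Agent.J4
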